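import Mathlib
import Cfsg.Prelude.Def_Transfer

set_option autoImplicit false
open Cfsg

/-! Central automorphisms of extraspecial 2-groups are inner. -/

namespace Cfsg.Agent.Lib.Helper27.Extra

open Subgroup
open scoped IsMulCommutative

variable {E : Type*} [Group E]

/-- the commutator map `x ↦ g x g⁻¹ x⁻¹` as a homomorphism to the centre (class two). -/
def commHom (hc : ∀ a b : E, a * b * a⁻¹ * b⁻¹ ∈ center E) (g : E) : E →* center E where
  toFun x := ⟨g * x * g⁻¹ * x⁻¹, hc g x⟩
  map_one' := by ext; simp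
  map_mul' x y := by
    ext
    have h := (mem_center_iff.mp (hc g y)) x⁻¹
    simp only [Subgroup.coe_mul]
    have h2 : g * y * g⁻¹ * y⁻¹ * x⁻¹ = x⁻¹ * (g * y * g⁻¹ * y⁻¹) := h.symm
    calc g * (x * y) * g⁻¹ * (x * y)⁻¹ = g * x * g⁻¹ * (g * y * g⁻¹ * y⁻¹ * x⁻¹) := by group
      _ = g * x * g⁻¹ * (x⁻¹ * (g * y * g⁻¹ * y⁻¹)) := by rw [h2]
      _ = _ := by group

/-- `g ↦ [g, ·]` as a homomorphism. -/
def commHom₂ (hc : ∀ a b : E, a * b * a⁻¹ * b⁻¹ ∈ center E) : E →* (E →* center E) where
  toFun g := commHom hc g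
  map_one' := by ext; simp [commHom]
  map_mul' g g' := by
    ext x
    have h := (mem_center_iff.mp (hc g' x)) g
    simp only [commHom, MonoidHom.coe_mk, OneHom.coe_mk, MonoidHom.mul_apply, Subgroup.coe_mul]
    calc g * g' * x * (g * g')⁻¹ * x⁻¹ = g * (g' * x * g'⁻¹ * x⁻¹) * (x * g⁻¹ * x⁻¹) := by group
      _ = (g' * x * g'⁻¹ * x⁻¹) * g * (x * g⁻¹ * x⁻¹) := by rw [h]
      _ = (g' * x * g'⁻¹ * x⁻¹) * (g * x * g⁻¹ * x⁻¹) := by group
      _ = _ := ((mem_center_iff.mp (hc g' x)) _).symm

theorem comm_mem_center {p : ℕ} (h : IsExtraspecial p E) (a b : E) :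
    a * b * a⁻¹ * b⁻¹ ∈ center E := by
  rw [← h.1.2.2]
  exact Subgroup.commutator_mem_commutator (mem_top a) (mem_top b)

theorem inner_of_central [Finite E] (hE : IsExtraspecial 2 E) (φ : E →* E)
    (hφ : ∀ x : E, φ x * x⁻¹ ∈ center E) : ∃ g : E, ∀ x : E, φ x = g * x * g⁻¹ := by
  classical
  have hc := comm_mem_center hE
  have hZ2 : Nat.card (center E) = 2 := hE.2
  -- an injective character of the centre
  obtain ⟨z, hz⟩ : ∃ z : center E, z ≠ 1 := by
    have : Nontrivial (center E) := by
      rw [← Finite.one_lt_card_iff_nontrivial, hZ2]; norm_num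
    exact exists_ne 1
  obtain ⟨ι, hι⟩ := CommGroup.exists_apply_ne_one_of_hasEnoughRootsOfUnity (center E) ℂ hz
  have hall : ∀ w : center E, w = 1 ∨ w = z := by
    intro w
    by_contra hw
    push Not at hw
    haveI := Fintype.ofFinite (center E)
    have h1 : ({1, z, w} : Finset (center E)).card = 3 := by
      rw [Finset.card_insert_of_notMem, Finset.card_insert_of_notMem, Finset.card_singleton]
      · simpa using hw.2.symm
      · simp only [Finset.mem_insert, Finset.mem_singleton, not_or]
        exact ⟨hz.symm, hw.1.symm⟩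
    have h2 := Finset.card_le_univ ({1, z, w} : Finset (center E))
    rw [h1, ← Nat.card_eq_fintype_card, hZ2] at h2
    omega
  have hιinj : Function.Injective ι := by
    rw [injective_iff_map_eq_one]
    intro w hw
    rcases hall w with h | h
    · exact h
    · exact absurd (h ▸ hw) hι
  -- the dual of `E`
  have hcard : Nat.card (E →* ℂˣ) = (commutator E).index := by
    rw [Nat.card_congr (Abelianization.lift (G := E) (A := ℂˣ)),
      CommGroup.card_monoidHom_of_hasEnoughRootsOfUnity]
    rfl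
  haveI : Finite (E →* ℂˣ) := Nat.finite_of_card_ne_zero (by
    rw [hcard]; exact Subgroup.index_ne_zero_of_finite)
  let Ψ : E →* (E →* ℂˣ) := (MonoidHom.compHom ι).comp (commHom₂ hc)
  have hker : Ψ.ker = center E := by
    ext g
    rw [MonoidHom.mem_ker]
    constructor
    · intro hg
      rw [mem_center_iff]
      intro x
      have h1 : ι (commHom hc g x) = 1 := DFunLike.congr_fun hg x
      have h2 : commHom hc g x = 1 := hιinj (h1.trans (map_one ι).symm)
      have h3 : g * x * g⁻¹ * x⁻¹ = 1 := congrArg Subtype.val h2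
      have h4 : g * x = x * g := by
        calc g * x = (g * x * g⁻¹ * x⁻¹) * (x * g) := by group
          _ = x * g := by rw [h3, one_mul]
      exact h4.symm
    · intro hg
      ext x
      have h1 : commHom hc g x = 1 := by
        ext
        have := (mem_center_iff.mp hg) x
        show g * x * g⁻¹ * x⁻¹ = 1
        rw [← this]; group
      show ((ι (commHom hc g x) : ℂˣ) : ℂ) = _
      rw [h1, map_one]; rfl
  have hrange : Ψ.range = ⊤ := by
    apply Subgroup.eq_top_of_card_eq
    have h1 := Subgroup.index_ker Ψ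
    rw [← h1, hker, hcard, hE.1.2.2]
  -- the character attached to `φ`
  let χ₀ : E →* center E :=
    { toFun := fun x => ⟨φ x * x⁻¹, hφ x⟩
      map_one' := by ext; simp
      map_mul' := fun x y => by
        ext
        have h := (mem_center_iff.mp (hφ y)) x⁻¹
        simp only [Subgroup.coe_mul, map_mul]
        calc φ x * φ y * (x * y)⁻¹ = φ x * (φ y * y⁻¹ * x⁻¹) := by group
          _ = φ x * (x⁻¹ * (φ y * y⁻¹)) := by rw [h]
          _ = _ := by group }
  have hχ : ι.comp χ₀ ∈ Ψ.range := hrange ▸ mem_top _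
  obtain ⟨g, hg⟩ := hχ
  refine ⟨g, fun x => ?_⟩
  have h1 : ι (commHom hc g x) = ι (χ₀ x) := DFunLike.congr_fun hg x
  have h2 : commHom hc g x = χ₀ x := hιinj h1
  have h3 : g * x * g⁻¹ * x⁻¹ = φ x * x⁻¹ := congrArg Subtype.val h2
  exact (mul_right_cancel h3).symm

end Cfsg.Agent.Lib.Helper27.Extra
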