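import Cfsg.Agent.Lib.Helper27.Extra

set_option autoImplicit false
open Cfsg

/-! Central automorphisms of extraspecial p-groups are inner (any prime). -/

namespace Cfsg.Agent.Lib.Helper27.Extra

open Subgroup
open scoped IsMulCommutative

variable {E : Type*} [Group E]

theorem inner_of_central_p [Finite E] {p : ℕ} [hp : Fact p.Prime] (hE : IsExtraspecial p E) (φ : E →* E)
    (hφ : ∀ x : E, φ x * x⁻¹ ∈ center E) : ∃ g : E, ∀ x : E, φ x = g * x * g⁻¹ := by
  classical
  have hc := comm_mem_center hE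
  have hZ2 : Nat.card (center E) = p := hE.2
  obtain ⟨z, hz⟩ : ∃ z : center E, z ≠ 1 := by
    have : Nontrivial (center E) := by
      rw [← Finite.one_lt_card_iff_nontrivial, hZ2]; exact hp.out.one_lt
    exact exists_ne 1
  obtain ⟨ι, hι⟩ := CommGroup.exists_apply_ne_one_of_hasEnoughRootsOfUnity (center E) ℂ hz
  have hιinj : Function.Injective ι := by
    rw [← MonoidHom.ker_eq_bot_iff]
    have : Fact (Nat.card (center E)).Prime := ⟨hZ2 ▸ hp.out⟩
    rcases Subgroup.eq_bot_or_eq_top_of_prime_card ι.ker with h | h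
    · exact h
    · exact absurd (MonoidHom.mem_ker.mp (h ▸ mem_top z)) hι
  have hcard : Nat.card (E →* ℂˣ) = (commutator E).index := by
    rw [Nat.card_congr (Abelianization.lift (G := E) (A := ℂˣ)),
      CommGroup.card_monoidHom_of_hasEnoughRootsOfUnity]
    rfl
  have : Finite (E →* ℂˣ) := Nat.finite_of_card_ne_zero (by
    rw [hcard]; exact Subgroup.index_ne_zero_of_finite)
  let Ψ : E →* (E →* ℂˣ) := (MonoidHom.compHom ι).comp (commHom₂ hc)
  have hker : Ψ.ker = center E := by
    ext g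
    rw [MonoidHom.mem_ker]
    constructor
    · intro hg
      rw [mem_center_iff]
      intro x
      have h1 : ι (commHom hc g x) = 1 := DFunLike.congr_fun hg x
      have h2 : commHom hc g x = 1 := hιinj (h1.trans (map_one ι).symm)
      have h3 : g * x * g⁻¹ * x⁻¹ = 1 := congrArg Subtype.val h2
      have h4 : g * x = x * g := by
        calc g * x = (g * x * g⁻¹ * x⁻¹) * (x * g) := by group
          _ = x * g := by rw [h3, one_mul]
      exact h4.symm
    · intro hg
      ext x
      have h1 : commHom hc g x = 1 := by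
        ext
        have := (mem_center_iff.mp hg) x
        show g * x * g⁻¹ * x⁻¹ = 1
        rw [← this]; group
      show ((ι (commHom hc g x) : ℂˣ) : ℂ) = _
      rw [h1, map_one]; rfl
  have hrange : Ψ.range = ⊤ := by
    apply Subgroup.eq_top_of_card_eq
    have h1 := Subgroup.index_ker Ψ
    rw [← h1, hker, hcard, hE.1.2.2]
  let χ₀ : E →* center E :=
    { toFun := fun x => ⟨φ x * x⁻¹, hφ x⟩
      map_one' := by ext; simp
      map_mul' := fun x y => by
        ext
        have h := (mem_center_iff.mp (hφ y)) x⁻¹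
        simp only [Subgroup.coe_mul, map_mul]
        calc φ x * φ y * (x * y)⁻¹ = φ x * (φ y * y⁻¹ * x⁻¹) := by group
          _ = φ x * (x⁻¹ * (φ y * y⁻¹)) := by rw [h]
          _ = _ := by group }
  have hχ : ι.comp χ₀ ∈ Ψ.range := hrange ▸ mem_top _
  obtain ⟨g, hg⟩ := hχ
  refine ⟨g, fun x => ?_⟩
  have h1 : ι (commHom hc g x) = ι (χ₀ x) := DFunLike.congr_fun hg x
  have h2 : commHom hc g x = χ₀ x := hιinj h1
  have h3 : g * x * g⁻¹ * x⁻¹ = φ x * x⁻¹ := congrArg Subtype.val h2
  exact (mul_right_cancel h3).symm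

/-- If `g` normalizes the extraspecial subgroup `Q` and acts trivially modulo `Z(Q)`,
then `g ∈ Q C_G(Q)`. -/
theorem mem_sup_centralizer {G : Type*} [Group G] {p : ℕ} [Fact p.Prime] (Q : Subgroup G) [Finite Q]
    (hQ : IsExtraspecial p Q) (g : G)
    (h : ∀ x ∈ Q, g * x * g⁻¹ * x⁻¹ ∈ Q ⊓ centralizer (Q : Set G)) :
    g ∈ Q ⊔ centralizer (Q : Set G) := by
  have hN : ∀ x ∈ Q, g * x * g⁻¹ ∈ Q := by
    intro x hx
    have h1 := Q.mul_mem (h x hx).1 hx
    rwa [inv_mul_cancel_right] at h1
  let φ : Q →* Q :=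
    { toFun := fun x => ⟨g * x * g⁻¹, hN x x.2⟩
      map_one' := by ext; simp
      map_mul' := fun x y => by ext; simp }
  have hφ : ∀ x : Q, ((φ x : Q) : G) = g * x * g⁻¹ := fun x => rfl
  have hcen : ∀ x : Q, φ x * x⁻¹ ∈ center Q := by
    intro x
    rw [mem_center_iff]
    intro y
    ext
    have h1 := (mem_centralizer_iff.mp (h x x.2).2) y y.2
    simp only [Subgroup.coe_mul, Subgroup.coe_inv, hφ]
    exact h1
  obtain ⟨u, hu⟩ := inner_of_central_p hQ φ hcen
  have h1 : (u : G)⁻¹ * g ∈ centralizer (Q : Set G) := by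
    rw [mem_centralizer_iff]
    intro x hx
    have h2 := congrArg Subtype.val (hu ⟨x, hx⟩)
    rw [hφ] at h2
    simp only [Subgroup.coe_mul, Subgroup.coe_inv] at h2
    calc x * ((u : G)⁻¹ * g) = (u : G)⁻¹ * ((u : G) * x * (u : G)⁻¹) * g := by group
      _ = (u : G)⁻¹ * (g * x * g⁻¹) * g := by rw [h2]
      _ = (u : G)⁻¹ * g * x := by group
  have h2 : g = (u : G) * ((u : G)⁻¹ * g) := by group
  rw [h2]
  exact mul_mem (mem_sup_left u.2) (mem_sup_right h1)

end Cfsg.Agent.Lib.Helper27.Extra
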