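import Cfsg.Agent.Lib.Helper27.XS7

/-!
`2`-groups of symplectic type and exponent dividing `4`: the Frattini subgroup has order at most `2`.
-/

set_option autoImplicit false

open Cfsg Subgroup
open scoped commutatorElement

namespace Cfsg.Agent.Lib.Helper27.Sym4

open Cfsg.Agent.Lib.Helper27.XS

variable {T : Type*} [Group T]

/-- In a finite `p`-group, a normal subgroup not inside `M` has an element outside `M` which is central
modulo `M`. -/
theorem exists_central_mod [Finite T] {p : ℕ} [Fact p.Prime] (hT : IsPGroup p T) {N M : Subgroup T}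
    [hN : N.Normal] (h : ¬ N ≤ M) : ∃ a ∈ N, a ∉ M ∧ ∀ x : T, x * a * x⁻¹ * a⁻¹ ∈ M := by
  by_contra hcon
  push Not at hcon
  have key : ∀ n : ℕ, ∃ a ∈ N, a ∉ M ∧ a ∈ Subgroup.lowerCentralSeries (⊤ : Subgroup T) n := by
    intro n
    induction n with
    | zero =>
      obtain ⟨a, ha, haM⟩ := SetLike.not_le_iff_exists.1 h
      exact ⟨a, ha, haM, Subgroup.mem_top a⟩
    | succ n ih =>
      obtain ⟨a, ha, haM, han⟩ := ih
      obtain ⟨x, hx⟩ := hcon a ha haM
      refine ⟨x * a * x⁻¹ * a⁻¹, N.mul_mem (hN.conj_mem _ ha _) (N.inv_mem ha), hx, ?_⟩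
      rw [Subgroup.lowerCentralSeries_succ]
      have e : x * a * x⁻¹ * a⁻¹ = ⁅a, x⁆⁻¹ := by rw [commutatorElement_def]; group
      rw [e]
      exact Subgroup.inv_mem _ (Subgroup.commutator_mem_commutator han (Subgroup.mem_top x))
  obtain ⟨n, hn⟩ := Subgroup.nilpotent_iff_lowerCentralSeries.1 hT.isNilpotent
  obtain ⟨a, _, haM, han⟩ := key n
  rw [hn, Subgroup.mem_bot] at han
  exact haM (han ▸ M.one_mem)

theorem invol_unique_of_cyclic {A : Type*} [Group A] [Finite A] [IsCyclic A] {a u : A} (ha1 : a ≠ 1)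
    (ha : a * a = 1) (hu1 : u ≠ 1) (hu : u * u = 1) : a = u := by
  classical
  have : Fintype A := Fintype.ofFinite A
  by_contra hne
  have h := IsCyclic.card_pow_eq_one_le (α := A) (n := 2) (by norm_num)
  have hsub : ({1, u, a} : Finset A) ⊆ Finset.univ.filter (fun x : A => x ^ 2 = 1) := by
    intro x hx
    simp only [Finset.mem_insert, Finset.mem_singleton] at hx
    simp only [Finset.mem_filter, Finset.mem_univ, true_and]
    rcases hx with rfl | rfl | rfl
    · simp
    · rw [sq]; exact hu
    · rw [sq]; exact ha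
  have h3 : ({1, u, a} : Finset A).card = 3 := by
    rw [Finset.card_insert_of_notMem, Finset.card_insert_of_notMem, Finset.card_singleton]
    · simp [Ne.symm hne]
    · simp [hu1.symm, ha1.symm]
  have := Finset.card_le_card hsub
  omega

/-- The Frattini subgroup lies in the subgroup generated by the squares. -/
theorem frattini_le_closure_sq [Finite T] :
    frattini T ≤ Subgroup.closure {y : T | ∃ x : T, y = x * x} := by
  have : Fact (Nat.Prime 2) := ⟨Nat.prime_two⟩
  obtain ⟨K, hK⟩ : ∃ K : Subgroup T, K = Subgroup.closure {y : T | ∃ x : T, y = x * x} := ⟨_, rfl⟩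
  rw [← hK]
  have hsq : ∀ x : T, x * x ∈ K := fun x => by rw [hK]; exact Subgroup.subset_closure ⟨x, rfl⟩
  have hn : K.Normal := by
    refine ⟨fun k hk g => ?_⟩
    rw [hK] at hk
    induction hk using Subgroup.closure_induction with
    | mem y hy =>
      obtain ⟨x, rfl⟩ := hy
      have e : g * (x * x) * g⁻¹ = (g * x * g⁻¹) * (g * x * g⁻¹) := by group
      rw [e]; exact hsq _
    | one => simp
    | mul x y _ _ hx hy =>
      have e : g * (x * y) * g⁻¹ = (g * x * g⁻¹) * (g * y * g⁻¹) := by group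
      rw [e]; exact K.mul_mem hx hy
    | inv x _ hx =>
      have e : g * x⁻¹ * g⁻¹ = (g * x * g⁻¹)⁻¹ := by group
      rw [e]; exact K.inv_mem hx
  refine Cfsg.H1.frattini_pgroup_le 2 K ?_ (fun x => by rw [pow_two]; exact hsq x)
  rw [_root_.commutator_def, Subgroup.commutator_le]
  intro x _ y _
  have e : ⁅x, y⁆ = ((x * y) * (x * y)) * ((y⁻¹ * x⁻¹ * y) * (y⁻¹ * x⁻¹ * y)) * (y⁻¹ * y⁻¹) := by
    rw [commutatorElement_def]; group
  rw [e]
  exact K.mul_mem (K.mul_mem (hsq _) (hsq _)) (hsq _)

/-- The Frattini subgroup of a `2`-group of symplectic type and exponent dividing `4`. -/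
theorem frattini_le [Finite T] (hS : Cfsg.IsOfSymplecticType T) (h4 : ∀ x : T, x ^ 4 = 1) {z : T}
    (hzc : ∀ x : T, x * z = z * x) (hz1 : z ≠ 1) (hzz : z * z = 1) :
    ∀ y ∈ frattini T, y = 1 ∨ y = z := by
  have : Fact (Nat.Prime 2) := ⟨Nat.prime_two⟩
  have h4' : ∀ x : T, (x * x) * (x * x) = 1 := by
    intro x
    have := h4 x
    simpa [pow_succ, mul_assoc] using this
  obtain ⟨N, hN⟩ : ∃ N : Subgroup T, N = frattini T := ⟨_, rfl⟩
  have hNc : N.Characteristic := hN ▸ frattini_characteristic
  have hNn : N.Normal := inferInstance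
  rw [← hN]
  obtain ⟨M, hM⟩ : ∃ M : Subgroup T, M = Subgroup.zpowers z := ⟨_, rfl⟩
  have memM : ∀ y, y ∈ M ↔ y = 1 ∨ y = z := fun y => by rw [hM]; exact mem_zpowers_invol hzz
  suffices hle : N ≤ M from fun y hy => (memM y).1 (hle hy)
  by_contra hNM
  -- uniqueness of involutions in the centre
  have uniqZ : ∀ u : T, (∀ x : T, x * u = u * x) → u * u = 1 → u ≠ 1 → u = z := by
    intro u huc huu hu1
    have hcyc : IsCyclic ↥(Subgroup.center T) := hS.2 _ inferInstance inferInstance
    have hu : u ∈ Subgroup.center T := Subgroup.mem_center_iff.2 huc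
    have hz : z ∈ Subgroup.center T := Subgroup.mem_center_iff.2 hzc
    have := invol_unique_of_cyclic (A := ↥(Subgroup.center T)) (a := ⟨u, hu⟩) (u := ⟨z, hz⟩)
      (fun h => hu1 (congrArg Subtype.val h)) (Subtype.ext huu)
      (fun h => hz1 (congrArg Subtype.val h)) (Subtype.ext hzz)
    exact congrArg Subtype.val this
  obtain ⟨A, hA⟩ : ∃ A : Subgroup T, A = N ⊓ Subgroup.centralizer (N : Set T) := ⟨_, rfl⟩
  have memA : ∀ y, y ∈ A ↔ y ∈ N ∧ ∀ n ∈ N, n * y = y * n := by
    intro y; rw [hA, Subgroup.mem_inf, Subgroup.mem_centralizer_iff]; rfl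
  have hAc : A.Characteristic := hA ▸ inferInstance
  have hAn : A.Normal := inferInstance
  have hAcomm : IsMulCommutative ↥A :=
    ⟨⟨fun a b => Subtype.ext (((memA b.1).1 b.2).2 a.1 ((memA a.1).1 a.2).1)⟩⟩
  have hAcyc : IsCyclic ↥A := hS.2 A hAc hAcomm
  have uniqA : ∀ u ∈ A, ∀ v ∈ A, u * u = 1 → u ≠ 1 → v * v = 1 → v ≠ 1 → u = v := by
    intro u hu v hv huu hu1 hvv hv1
    have := invol_unique_of_cyclic (A := ↥A) (a := ⟨u, hu⟩) (u := ⟨v, hv⟩)
      (fun h => hu1 (congrArg Subtype.val h)) (Subtype.ext huu)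
      (fun h => hv1 (congrArg Subtype.val h)) (Subtype.ext hvv)
    exact congrArg Subtype.val this
  -- elements central modulo `z` centralize `N`
  have rel : ∀ a x : T, x * a * x⁻¹ * a⁻¹ ∈ M → x * a = a * x ∨ x * a = z * (a * x) := by
    intro a x h
    rcases (memM _).1 h with h | h
    · left
      calc x * a = (x * a * x⁻¹ * a⁻¹) * (a * x) := by group
        _ = a * x := by rw [h, one_mul]
    · right
      calc x * a = (x * a * x⁻¹ * a⁻¹) * (a * x) := by group
        _ = z * (a * x) := by rw [h]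
  have L1 : ∀ a : T, (∀ x : T, x * a * x⁻¹ * a⁻¹ ∈ M) → ∀ n ∈ N, n * a = a * n := by
    intro a ha
    have h1 : N ≤ Subgroup.centralizer ({a} : Set T) := by
      rw [hN]
      refine frattini_le_closure_sq.trans ?_
      rw [Subgroup.closure_le]
      rintro _ ⟨x, rfl⟩
      show x * x ∈ Subgroup.centralizer ({a} : Set T)
      rw [Subgroup.mem_centralizer_singleton_iff]
      rcases rel a x (ha x) with h | h
      · calc x * x * a = x * (x * a) := by group
          _ = x * (a * x) := by rw [h]
          _ = (x * a) * x := by group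
          _ = (a * x) * x := by rw [h]
          _ = a * (x * x) := by group
      · calc x * x * a = x * (x * a) := by group
          _ = x * (z * (a * x)) := by rw [h]
          _ = (x * z) * a * x := by group
          _ = (z * x) * a * x := by rw [hzc x]
          _ = z * (x * a) * x := by group
          _ = z * (z * (a * x)) * x := by rw [h]
          _ = (z * z) * a * x * x := by group
          _ = a * (x * x) := by rw [hzz]; group
    intro n hn
    exact Subgroup.mem_centralizer_singleton_iff.1 (h1 hn)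
  -- first element
  obtain ⟨a, haN, haM, hac⟩ := exists_central_mod hS.1 hNM
  have haA : a ∈ A := (memA a).2 ⟨haN, L1 a hac⟩
  have haz : a * a = z := by
    have hcen : ∀ x : T, x * (a * a) = (a * a) * x := by
      intro x
      rcases rel a x (hac x) with h | h
      · calc x * (a * a) = (x * a) * a := by group
          _ = (a * x) * a := by rw [h]
          _ = a * (x * a) := by group
          _ = a * (a * x) := by rw [h]
          _ = _ := by group
      · calc x * (a * a) = (x * a) * a := by group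
          _ = (z * (a * x)) * a := by rw [h]
          _ = z * a * (x * a) := by group
          _ = z * a * (z * (a * x)) := by rw [h]
          _ = z * (a * z) * a * x := by group
          _ = z * (z * a) * a * x := by rw [hzc a]
          _ = (z * z) * a * a * x := by group
          _ = _ := by rw [hzz]; group
    by_cases haa : a * a = 1
    · exfalso
      have ha1 : a ≠ 1 := fun h => haM ((memM a).2 (Or.inl h))
      by_cases hc : ∀ x : T, x * a = a * x
      · exact haM ((memM a).2 (Or.inr (uniqZ a hc haa ha1)))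
      · push Not at hc
        obtain ⟨x, hx⟩ := hc
        have h1 : x * a = z * (a * x) := (rel a x (hac x)).resolve_left hx
        have h2 : z = x * a * x⁻¹ * a⁻¹ := by rw [h1]; group
        have hzN : z ∈ N := by
          rw [h2]; exact N.mul_mem (hNn.conj_mem _ haN _) (N.inv_mem haN)
        have hzA : z ∈ A := (memA z).2 ⟨hzN, fun n _ => hzc n⟩
        exact haM ((memM a).2 (Or.inr (uniqA a haA z hzA haa ha1 hzz hz1)))
    · exact uniqZ _ hcen (h4' a) haa
  have hzN : z ∈ N := haz ▸ N.mul_mem haN haN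
  have hzA : z ∈ A := (memA z).2 ⟨hzN, fun n _ => hzc n⟩
  have invA : ∀ w ∈ A, w * w = 1 → w ∈ M := by
    intro w hw hww
    by_cases hw1 : w = 1
    · exact (memM w).2 (Or.inl hw1)
    · exact (memM w).2 (Or.inr (uniqA w hw z hzA hww hw1 hzz hz1))
  -- `N` is not inside `A`
  have hNA : ¬ N ≤ A := by
    intro hle
    apply hNM
    rw [hN]
    refine frattini_le_closure_sq.trans ?_
    rw [Subgroup.closure_le]
    rintro _ ⟨x, rfl⟩
    have hx : x * x ∈ N := by
      rw [hN, ← pow_two]; exact (Cfsg.H1.frattini_pgroup_ge 2 hS.1).2 x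
    exact invA _ (hle hx) (h4' x)
  obtain ⟨b, hbN, hbA, hbc⟩ := exists_central_mod hS.1 hNA
  -- an involution outside `A`, central modulo `A`
  have hu : ∃ u ∈ N, u ∉ A ∧ u * u = 1 ∧ ∀ x : T, x * u * x⁻¹ * u⁻¹ ∈ A := by
    by_cases hbb : b * b ∈ A
    · rcases (memM _).1 (invA _ hbb (h4' b)) with h | h
      · exact ⟨b, hbN, hbA, h, hbc⟩
      · have hab : b * a = a * b := ((memA a).1 haA).2 b hbN
        refine ⟨a * b, N.mul_mem haN hbN, ?_, ?_, ?_⟩
        · intro h1
          apply hbA
          have : b = a⁻¹ * (a * b) := by group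
          rw [this]; exact A.mul_mem (A.inv_mem haA) h1
        · calc a * b * (a * b) = a * (b * a) * b := by group
            _ = (a * a) * (b * b) := by rw [hab]; group
            _ = 1 := by rw [haz, h, hzz]
        · intro x
          have e : x * (a * b) * x⁻¹ * (a * b)⁻¹ = (x * a * x⁻¹) * (x * b * x⁻¹ * b⁻¹) * a⁻¹ := by
            group
          rw [e]
          exact A.mul_mem (A.mul_mem (hAn.conj_mem _ haA _) (hbc x)) (A.inv_mem haA)
    · refine ⟨b * b, N.mul_mem hbN hbN, hbb, h4' b, ?_⟩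
      intro x
      obtain ⟨w, hw⟩ : ∃ w, w = x * b * x⁻¹ * b⁻¹ := ⟨_, rfl⟩
      have hwA : w ∈ A := hw ▸ hbc x
      have hbw : b * w = w * b := ((memA w).1 hwA).2 b hbN
      have e : x * (b * b) * x⁻¹ * (b * b)⁻¹ = w * w := by
        calc x * (b * b) * x⁻¹ * (b * b)⁻¹
            = (x * b * x⁻¹ * b⁻¹) * (b * (x * b * x⁻¹ * b⁻¹)) * b⁻¹ := by group
          _ = w * (b * w) * b⁻¹ := by rw [← hw]
          _ = w * w := by rw [hbw]; group
      rw [e]; exact A.mul_mem hwA hwA
  obtain ⟨u, huN, huA, huu, huc⟩ := hu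
  apply huA
  refine (memA u).2 ⟨huN, L1 u ?_⟩
  intro x
  obtain ⟨w, hw⟩ : ∃ w, w = x * u * x⁻¹ * u⁻¹ := ⟨_, rfl⟩
  rw [← hw]
  have hwA : w ∈ A := hw ▸ huc x
  have huw : u * w = w * u := ((memA w).1 hwA).2 u huN
  apply invA w hwA
  have e1 : (w * u) * (w * u) = 1 := by
    have : w * u = x * u * x⁻¹ := by rw [hw]; group
    rw [this]
    calc x * u * x⁻¹ * (x * u * x⁻¹) = x * (u * u) * x⁻¹ := by group
      _ = 1 := by rw [huu]; group
  calc w * w = w * w * (u * u) := by rw [huu, mul_one]
    _ = w * (w * u) * u := by group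
    _ = w * (u * w) * u := by rw [huw]
    _ = (w * u) * (w * u) := by group
    _ = 1 := e1

end Cfsg.Agent.Lib.Helper27.Sym4
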