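import Cfsg.Agent.Lib.Helper27.ThreeTrS

/-!
Maximal commuting sets of 3-transpositions and their normalizers.
-/

set_option autoImplicit false

open scoped commutatorElement

namespace Cfsg.Agent.Lib.Helper27.TT

open Cfsg Cfsg.Agent.Lib.Helper27 Cfsg.Agent.Lib.Helper27.W1

universe u

variable {G : Type u} [Group G] {D : Set G}

theorem isPGroup_two_closure_of_commute {E : Set G} (hsq : ∀ a ∈ E, a * a = 1)
    (hc : ∀ a ∈ E, ∀ b ∈ E, Commute a b) : IsPGroup 2 (Subgroup.closure E) := by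
  have hcomm : ∀ x ∈ Subgroup.closure E, ∀ y ∈ Subgroup.closure E, x * y = y * x := by
    letI := Subgroup.closureCommGroupOfComm (fun a ha b hb => (hc a ha b hb).eq)
    intro x hx y hy
    exact congrArg Subtype.val (mul_comm (⟨x, hx⟩ : Subgroup.closure E) ⟨y, hy⟩)
  have hsq' : ∀ x ∈ Subgroup.closure E, x * x = 1 := by
    intro x hx
    induction hx using Subgroup.closure_induction with
    | mem a ha => exact hsq a ha
    | one => simp
    | mul x y hx hy ihx ihy =>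
      calc x * y * (x * y) = x * (y * x) * y := by group
        _ = x * (x * y) * y := by rw [hcomm y hy x hx]
        _ = (x * x) * (y * y) := by group
        _ = 1 := by rw [ihx, ihy, one_mul]
    | inv x _ ih =>
      calc x⁻¹ * x⁻¹ = (x * x)⁻¹ := by group
        _ = 1 := by rw [ih, inv_one]
  intro x
  refine ⟨1, Subtype.ext ?_⟩
  show (x : G) ^ 2 ^ 1 = 1
  rw [pow_one, pow_two]
  exact hsq' x x.2

theorem inter_eq_of_max [Finite G] (hT3 : IsThreeTranspositionSet D) {E : Set G} (hE : E ⊆ D)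
    (hmax : ∀ E' : Set G, E' ⊆ D → (∀ a ∈ E', ∀ b ∈ E', Commute a b) → E'.ncard ≤ E.ncard)
    {T : Subgroup G} (hT : IsPGroup 2 T) (hET : E ⊆ T) : {x : G | x ∈ D ∧ x ∈ T} = E := by
  have hcomm : ∀ a ∈ {x : G | x ∈ D ∧ x ∈ T}, ∀ b ∈ {x : G | x ∈ D ∧ x ∈ T}, Commute a b := by
    intro a ha b hb
    by_contra hnc
    have h3 := cube_of_not_commute hT3 ha.1 hb.1 hnc
    obtain ⟨k, hk⟩ := hT ⟨a * b, T.mul_mem ha.2 hb.2⟩
    have hk' : (a * b) ^ 2 ^ k = 1 := congrArg Subtype.val hk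
    have hcop : Nat.Coprime 3 (2 ^ k) := Nat.Coprime.pow_right k (by norm_num)
    have h1 := pow_gcd_eq_one.mpr ⟨h3, hk'⟩
    rw [hcop, pow_one] at h1
    apply hnc
    have h2 := eq_inv_of_mul_eq_one_left h1
    rw [h2]
    exact (Commute.refl b).inv_left
  have h1 := hmax _ (fun x hx => hx.1) hcomm
  have hsub : E ⊆ {x : G | x ∈ D ∧ x ∈ T} := fun x hx => ⟨hE hx, hET hx⟩
  exact (Set.eq_of_subset_of_ncard_le hsub h1 (Set.toFinite _)).symm

theorem mem_normalizer_of_conj_mem [Finite G] {E : Set G} {x : G} (h : ∀ a ∈ E, x * a * x⁻¹ ∈ E) :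
    x ∈ Subgroup.normalizer E := by
  have hinj : Function.Injective (fun a : G => x * a * x⁻¹) := by
    intro a b hab
    exact mul_left_cancel (mul_right_cancel hab)
  have hsub : (fun a : G => x * a * x⁻¹) '' E ⊆ E := by
    rintro _ ⟨a, ha, rfl⟩
    exact h a ha
  have heq := Set.eq_of_subset_of_ncard_le hsub (by rw [Set.ncard_image_of_injective _ hinj]) (Set.toFinite _)
  rw [Subgroup.mem_set_normalizer_iff]
  intro a
  refine ⟨h a, fun ha => ?_⟩
  rw [← heq] at ha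
  obtain ⟨b, hb, hab⟩ := ha
  rw [← hinj hab]
  exact hb

/-- Sylow's theorem inside a subgroup `C`: a conjugate of the maximal commuting set `E` lying in `C ⊇ E` can be
moved back to `E` by an element of `C`. -/
theorem exists_conj_back [Finite G] (hT3 : IsThreeTranspositionSet D)
    (hconj : ∀ g : G, ∀ d ∈ D, g * d * g⁻¹ ∈ D) {E : Set G} (hE : E ⊆ D)
    (hc : ∀ a ∈ E, ∀ b ∈ E, Commute a b)
    (hmax : ∀ E' : Set G, E' ⊆ D → (∀ a ∈ E', ∀ b ∈ E', Commute a b) → E'.ncard ≤ E.ncard)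
    {C : Subgroup G} {g : G} (hEC : E ⊆ C) (hgEC : ∀ a ∈ E, g * a * g⁻¹ ∈ C) :
    ∃ k ∈ C, ∀ a ∈ E, (k * g) * a * (k * g)⁻¹ ∈ E := by
  have : Fact (Nat.Prime 2) := ⟨Nat.prime_two⟩
  have hQ₁ : IsPGroup 2 (Subgroup.closure E) :=
    isPGroup_two_closure_of_commute (fun a ha => sq hT3 (hE ha)) hc
  have hQ₂ : IsPGroup 2 (Subgroup.closure ((fun a : G => g * a * g⁻¹) '' E)) := by
    apply isPGroup_two_closure_of_commute
    · rintro _ ⟨a, ha, rfl⟩
      exact sq hT3 (hconj g a (hE ha))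
    · rintro _ ⟨a, ha, rfl⟩ _ ⟨b, hb, rfl⟩
      exact (Commute.conj_iff g).2 (hc a ha b hb)
  have hQ₁' : IsPGroup 2 ((Subgroup.closure E).subgroupOf C) :=
    hQ₁.comap_of_injective C.subtype C.subtype_injective
  have hQ₂' : IsPGroup 2 ((Subgroup.closure ((fun a : G => g * a * g⁻¹) '' E)).subgroupOf C) :=
    hQ₂.comap_of_injective C.subtype C.subtype_injective
  obtain ⟨P₁, hP₁⟩ := hQ₁'.exists_le_sylow
  obtain ⟨P₂, hP₂⟩ := hQ₂'.exists_le_sylow
  obtain ⟨k, hk⟩ := MulAction.exists_smul_eq C P₂ P₁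
  have hT : IsPGroup 2 ((P₁ : Subgroup C).map C.subtype) := P₁.2.map _
  have hET : E ⊆ ((P₁ : Subgroup C).map C.subtype : Subgroup G) := by
    intro a ha
    exact ⟨⟨a, hEC ha⟩, hP₁ (show (⟨a, hEC ha⟩ : C) ∈ (Subgroup.closure E).subgroupOf C from
      Subgroup.subset_closure ha), rfl⟩
  have heq := inter_eq_of_max hT3 hE hmax hT hET
  refine ⟨k, k.2, fun a ha => ?_⟩
  rw [← heq]
  refine ⟨hconj _ a (hE ha), ?_⟩
  have h1 : (⟨g * a * g⁻¹, hgEC a ha⟩ : C) ∈ (P₂ : Subgroup C) :=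
    hP₂ (show (⟨g * a * g⁻¹, hgEC a ha⟩ : C) ∈
      (Subgroup.closure ((fun a : G => g * a * g⁻¹) '' E)).subgroupOf C from
      Subgroup.subset_closure ⟨a, ha, rfl⟩)
  have h2 : k * (⟨g * a * g⁻¹, hgEC a ha⟩ : C) * k⁻¹ ∈ (P₁ : Subgroup C) := by
    rw [← hk, Sylow.coe_subgroup_smul]
    exact ⟨_, h1, rfl⟩
  refine ⟨_, h2, ?_⟩
  simp only [Subgroup.subtype_apply, Subgroup.coe_mul, Subgroup.coe_inv]
  group

end Cfsg.Agent.Lib.Helper27.TT
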