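import Cfsg.Agent.Lib.Helper27.Sym4

/-!
`2`-subgroups `Q` with `Q' , Q² ≤ ⟨z⟩`, `z` the only involution of `C_G(Q)`, `Q ⊴ C(z)`: if a conjugate
`t` of `z` lies in `Q - ⟨z⟩` then `N(⟨z,t⟩)` induces `S₃` and `z ∈ Q^g`.
-/

set_option autoImplicit false

open Cfsg Subgroup
open scoped commutatorElement

namespace Cfsg.Agent.Lib.Helper27.XS

variable {G : Type*} [Group G]

/-- The elementwise form of the hypotheses (symplectic type, exponent four). -/
structure Setup4 (Q : Subgroup G) (z : G) : Prop where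
  pg : IsPGroup 2 ↥Q
  zQ : z ∈ Q
  z1 : z ≠ 1
  zz : z * z = 1
  zc : ∀ q ∈ Q, q * z = z * q
  comm : ∀ a ∈ Q, ∀ b ∈ Q, a * b = b * a ∨ a * b = z * (b * a)
  sq : ∀ a ∈ Q, a * a = 1 ∨ a * a = z
  cent : ∀ c, (∀ q ∈ Q, q * c = c * q) → c * c = 1 → c = 1 ∨ c = z
  norm : ∀ c, c * z = z * c → c ∈ Subgroup.normalizer (Q : Set G)

namespace Setup4

variable {Q : Subgroup G} {z : G}

theorem exists_conj_mul (S : Setup4 Q z) {t : G} (ht : t ∈ Q) (ht1 : t ≠ 1) (htz : t ≠ z)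
    (htt : t * t = 1) : ∃ q ∈ Q, q * t * q⁻¹ = z * t := by
  have h1 : ∃ q ∈ Q, q * t ≠ t * q := by
    by_contra h
    push Not at h
    exact (S.cent t h htt).elim ht1 htz
  obtain ⟨q, hq, hne⟩ := h1
  refine ⟨q, hq, ?_⟩
  have h2 := (S.comm q hq t ht).resolve_left hne
  rw [h2]; group

/-- the involutions of `G` centralizing `C_Q(t)`. -/
theorem cent_R (S : Setup4 Q z) {t c : G} (ht : t ∈ Q) (ht1 : t ≠ 1) (htz : t ≠ z)
    (htt : t * t = 1) (hcc : c * c = 1) (hc : ∀ r ∈ Q, r * t = t * r → r * c = c * r) :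
    c = 1 ∨ c = z ∨ c = t ∨ c = t * z := by
  obtain ⟨q₀, hq₀, hq₀t⟩ := S.exists_conj_mul ht ht1 htz htt
  have hzz := S.zz
  have hci : c⁻¹ = c := inv_eq_of_mul_eq_one_left hcc
  have r1 : q₀ * t = z * t * q₀ := by rw [← hq₀t]; group
  have r2 : q₀⁻¹ * (z * t) = t * q₀⁻¹ := by rw [← hq₀t]; group
  have hzt : t * z = z * t := S.zc _ ht
  have hzq : q₀ * z = z * q₀ := S.zc _ hq₀
  have hzc : z * c = c * z := hc z S.zQ hzt.symm
  have htc : t * c = c * t := hc t ht rfl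
  have hcN := S.norm c hzc.symm
  have haQ : c * q₀ * c⁻¹ ∈ Q := (Subgroup.mem_normalizer_iff.1 hcN q₀).1 hq₀
  -- dichotomy
  have f3 : ∀ q ∈ Q, q * t = t * q ∨ (q₀⁻¹ * q) * t = t * (q₀⁻¹ * q) := by
    intro q hq
    rcases S.comm q hq t ht with h | h
    · exact Or.inl h
    · right
      calc q₀⁻¹ * q * t = q₀⁻¹ * (q * t) := by group
        _ = q₀⁻¹ * (z * (t * q)) := by rw [h]
        _ = (q₀⁻¹ * (z * t)) * q := by group
        _ = t * q₀⁻¹ * q := by rw [r2]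
        _ = t * (q₀⁻¹ * q) := by group
  have f4 : ∀ y : G, q₀ * y = y * q₀ → (∀ r ∈ Q, r * t = t * r → r * y = y * r) → y * y = 1 →
      y = 1 ∨ y = z := by
    intro y h1 h2
    apply S.cent
    intro q hq
    rcases f3 q hq with h | h
    · exact h2 q hq h
    · have h3 := h2 _ (Q.mul_mem (Q.inv_mem hq₀) hq) h
      calc q * y = q₀ * ((q₀⁻¹ * q) * y) := by group
        _ = q₀ * (y * (q₀⁻¹ * q)) := by rw [h3]
        _ = (q₀ * y) * (q₀⁻¹ * q) := by group
        _ = (y * q₀) * (q₀⁻¹ * q) := by rw [h1]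
        _ = y * q := by group
  obtain ⟨e, he⟩ : ∃ e, e = q₀⁻¹ * (c * q₀ * c⁻¹) := ⟨_, rfl⟩
  have heQ : e ∈ Q := he ▸ Q.mul_mem (Q.inv_mem hq₀) haQ
  have ha : c * q₀ * c⁻¹ = q₀ * e := by rw [he]; group
  have f5 : ∀ r ∈ Q, r * t = t * r → r * e = e * r := by
    intro r hr hrt
    have hr' : q₀ * r * q₀⁻¹ ∈ Q := Q.mul_mem (Q.mul_mem hq₀ hr) (Q.inv_mem hq₀)
    have hr't : (q₀ * r * q₀⁻¹) * t = t * (q₀ * r * q₀⁻¹) := by
      have hzr := S.zc _ hr'
      have e1 : (q₀ * r * q₀⁻¹) * (z * t) = (z * t) * (q₀ * r * q₀⁻¹) := by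
        rw [← hq₀t]
        calc q₀ * r * q₀⁻¹ * (q₀ * t * q₀⁻¹) = q₀ * (r * t) * q₀⁻¹ := by group
          _ = q₀ * (t * r) * q₀⁻¹ := by rw [hrt]
          _ = _ := by group
      have e2 : z * ((q₀ * r * q₀⁻¹) * t) = z * (t * (q₀ * r * q₀⁻¹)) := by
        calc z * ((q₀ * r * q₀⁻¹) * t) = (z * (q₀ * r * q₀⁻¹)) * t := by group
          _ = ((q₀ * r * q₀⁻¹) * z) * t := by rw [hzr]
          _ = (q₀ * r * q₀⁻¹) * (z * t) := by group
          _ = (z * t) * (q₀ * r * q₀⁻¹) := e1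
          _ = _ := by group
      exact mul_left_cancel e2
    have h1 := hc _ hr' hr't
    have h2 := hc r hr hrt
    have h3 : r * c⁻¹ = c⁻¹ * r := by
      calc r * c⁻¹ = c⁻¹ * (c * r) * c⁻¹ := by group
        _ = c⁻¹ * (r * c) * c⁻¹ := by rw [h2]
        _ = _ := by group
    rw [he]
    calc r * (q₀⁻¹ * (c * q₀ * c⁻¹)) = q₀⁻¹ * ((q₀ * r * q₀⁻¹) * c) * q₀ * c⁻¹ := by group
      _ = q₀⁻¹ * (c * (q₀ * r * q₀⁻¹)) * q₀ * c⁻¹ := by rw [h1]
      _ = q₀⁻¹ * c * q₀ * (r * c⁻¹) := by group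
      _ = q₀⁻¹ * c * q₀ * (c⁻¹ * r) := by rw [h3]
      _ = _ := by group
  -- squares
  have f7 : e * q₀ * e = q₀ := by
    have hsq : c * (q₀ * q₀) = (q₀ * q₀) * c := by
      rcases S.sq _ hq₀ with h | h
      · rw [h]; simp
      · rw [h]; exact hzc.symm
    have h1 : (q₀ * e) * (q₀ * e) = q₀ * q₀ := by
      rw [← ha]
      calc c * q₀ * c⁻¹ * (c * q₀ * c⁻¹) = (c * (q₀ * q₀)) * c⁻¹ := by group
        _ = (q₀ * q₀) * c * c⁻¹ := by rw [hsq]
        _ = _ := by group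
    have h2 : q₀ * (e * q₀ * e) = q₀ * q₀ := by rw [← h1]; group
    exact mul_left_cancel h2
  -- `e` is an involution or trivial
  have hec : e * c = c * e := hc e heQ (f5 t ht rfl).symm
  have hee : e * e = 1 := by
    have h1 : c * (q₀ * e) * c⁻¹ = q₀ := by
      rw [← ha, hci]
      calc c * (c * q₀ * c) * c = (c * c) * q₀ * (c * c) := by group
        _ = q₀ := by rw [hcc]; group
    have h2 : c * (q₀ * e) * c⁻¹ = q₀ * (e * e) := by
      calc c * (q₀ * e) * c⁻¹ = (c * q₀ * c⁻¹) * (c * e) * c⁻¹ := by group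
        _ = (q₀ * e) * (e * c) * c⁻¹ := by rw [ha, hec]
        _ = _ := by group
    rw [h1] at h2
    exact (mul_eq_left.1 h2.symm)
  have heq : q₀ * e = e * q₀ := by
    calc q₀ * e = (e * q₀ * e) * e := by rw [f7]
      _ = e * q₀ * (e * e) := by group
      _ = e * q₀ := by rw [hee, mul_one]
  have r3 : t * q₀ * t = z * q₀ := by
    calc t * q₀ * t = t * (q₀ * t) := by group
      _ = t * (z * t * q₀) := by rw [r1]
      _ = (t * z) * t * q₀ := by group
      _ = (z * t) * t * q₀ := by rw [hzt]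
      _ = z * (t * t) * q₀ := by group
      _ = z * q₀ := by rw [htt, mul_one]
  rcases f4 e heq f5 hee with h1 | h1
  · -- e = 1
    rw [h1, mul_one] at ha
    have h2 : q₀ * c = c * q₀ := by
      calc q₀ * c = (c * q₀ * c⁻¹) * c := by rw [ha]
        _ = c * q₀ := by group
    rcases f4 c h2 hc hcc with h3 | h3
    · exact Or.inl h3
    · exact Or.inr (Or.inl h3)
  · -- e = z
    rw [h1] at ha
    have h2 : q₀ * (t * c) = (t * c) * q₀ := by
      have h3 : c * q₀ = q₀ * z * c := by rw [← ha]; group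
      have h4 : t * q₀ = z * q₀ * t := by
        calc t * q₀ = (t * q₀ * t) * t := by
              rw [mul_assoc (t * q₀), htt, mul_one]
          _ = z * q₀ * t := by rw [r3]
      calc q₀ * (t * c) = (z * z) * q₀ * t * c := by rw [hzz]; group
        _ = z * (z * q₀ * t) * c := by group
        _ = z * (t * q₀) * c := by rw [h4]
        _ = (z * t) * q₀ * c := by group
        _ = (t * z) * q₀ * c := by rw [hzt]
        _ = t * (z * q₀) * c := by group
        _ = t * (q₀ * z) * c := by rw [hzq]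
        _ = t * (q₀ * z * c) := by group
        _ = t * (c * q₀) := by rw [h3]
        _ = _ := by group
    have h5 : ∀ r ∈ Q, r * t = t * r → r * (t * c) = (t * c) * r := by
      intro r hr hrt
      calc r * (t * c) = (r * t) * c := by group
        _ = (t * r) * c := by rw [hrt]
        _ = t * (r * c) := by group
        _ = t * (c * r) := by rw [hc r hr hrt]
        _ = _ := by group
    have h6 : (t * c) * (t * c) = 1 := by
      calc (t * c) * (t * c) = t * (c * t) * c := by group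
        _ = t * (t * c) * c := by rw [htc]
        _ = (t * t) * (c * c) := by group
        _ = 1 := by rw [htt, hcc, one_mul]
    rcases f4 _ h2 h5 h6 with h3 | h3
    · right; right; left
      calc c = (t * t) * c := by rw [htt, one_mul]
        _ = t * (t * c) := by group
        _ = t := by rw [h3, mul_one]
    · right; right; right
      calc c = (t * t) * c := by rw [htt, one_mul]
        _ = t * (t * c) := by group
        _ = t * z := by rw [h3]

/-- some element of `C(t)` interchanges `z` and `tz`. -/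
theorem exists_swap [Finite G] (S : Setup4 Q z) {g t : G} (htg : t = g * z * g⁻¹) (ht : t ∈ Q)
    (htz : t ≠ z) : ∃ x, x * t = t * x ∧ x * z * x⁻¹ = t * z := by
  have : Fact (Nat.Prime 2) := ⟨Nat.prime_two⟩
  have ht1 : t ≠ 1 := htg ▸ Setup.conj_ne_one S.z1
  have htt : t * t = 1 := by
    rw [htg]
    calc g * z * g⁻¹ * (g * z * g⁻¹) = g * (z * z) * g⁻¹ := by group
      _ = 1 := by rw [S.zz]; group
  obtain ⟨A, hA⟩ : ∃ A : Subgroup G, A = Subgroup.centralizer {z} ⊓ Subgroup.centralizer {t} :=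
    ⟨_, rfl⟩
  obtain ⟨R, hR⟩ : ∃ R : Subgroup G, R = Q ⊓ Subgroup.centralizer {t} := ⟨_, rfl⟩
  have memA : ∀ x, x ∈ A ↔ x * z = z * x ∧ x * t = t * x := by
    intro x
    rw [hA, Subgroup.mem_inf, Subgroup.mem_centralizer_singleton_iff,
      Subgroup.mem_centralizer_singleton_iff]
  have memR : ∀ x, x ∈ R ↔ x ∈ Q ∧ x * t = t * x := by
    intro x
    rw [hR, Subgroup.mem_inf, Subgroup.mem_centralizer_singleton_iff]
  have hRA : R ≤ A := fun x hx => (memA x).2 ⟨S.zc _ ((memR x).1 hx).1, ((memR x).1 hx).2⟩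
  have hRp : IsPGroup 2 ↥R := S.pg.to_le (hR ▸ inf_le_left)
  obtain ⟨T₀, ⟨hT₀p, hT₀A, hRT₀⟩, hmax⟩ := Set.Finite.exists_maximal
    (s := {T : Subgroup G | IsPGroup 2 ↥T ∧ T ≤ A ∧ R ≤ T}) (Set.toFinite _) ⟨R, hRp, hRA, le_rfl⟩
  obtain ⟨Qt, hQt⟩ : ∃ Qt : Subgroup G, Qt = Q.map (MulAut.conj g).toMonoidHom := ⟨_, rfl⟩
  have memQt : ∀ x, x ∈ Qt ↔ g⁻¹ * x * g ∈ Q := by
    intro x; rw [hQt]; exact Cfsg.Agent.H17.mem_map_conj_iff
  have hQtp : IsPGroup 2 ↥Qt := hQt ▸ S.pg.map _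
  have hQtN : ∀ c, c * t = t * c → c ∈ Subgroup.normalizer (Qt : Set G) := by
    intro c hc
    have h1 : (g⁻¹ * c * g) * z = z * (g⁻¹ * c * g) := by
      calc (g⁻¹ * c * g) * z = g⁻¹ * (c * (g * z * g⁻¹)) * g := by group
        _ = g⁻¹ * ((g * z * g⁻¹) * c) * g := by rw [← htg, hc]
        _ = _ := by group
    have h2 := S.norm _ h1
    rw [Subgroup.mem_normalizer_iff]
    intro y
    rw [memQt, memQt, Subgroup.mem_normalizer_iff.1 h2 (g⁻¹ * y * g)]
    have : g⁻¹ * c * g * (g⁻¹ * y * g) * (g⁻¹ * c * g)⁻¹ = g⁻¹ * (c * y * c⁻¹) * g := by group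
    rw [this]
  have hT₁p : IsPGroup 2 ↥(T₀ ⊔ Qt) :=
    hT₀p.to_sup_of_normal_right' hQtp (fun c hc => hQtN c ((memA c).1 (hT₀A hc)).2)
  have hQtt : ∀ y ∈ Qt, y * t = t * y := by
    intro y hy
    have h1 := S.zc _ ((memQt y).1 hy)
    rw [htg]
    calc y * (g * z * g⁻¹) = g * ((g⁻¹ * y * g) * z) * g⁻¹ := by group
      _ = g * (z * (g⁻¹ * y * g)) * g⁻¹ := by rw [h1]
      _ = _ := by group
  have hlt : T₀ < T₀ ⊔ Qt := by
    refine lt_of_le_of_ne le_sup_left ?_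
    intro h
    have hQtT : Qt ≤ T₀ := by rw [h]; exact le_sup_right
    have h1 : ∀ q ∈ Q, q * (g⁻¹ * z * g) = (g⁻¹ * z * g) * q := by
      intro q hq
      have h2 : g * q * g⁻¹ ∈ Qt := by
        rw [memQt]
        have : g⁻¹ * (g * q * g⁻¹) * g = q := by group
        rw [this]; exact hq
      have h3 := ((memA _).1 (hT₀A (hQtT h2))).1
      calc q * (g⁻¹ * z * g) = g⁻¹ * ((g * q * g⁻¹) * z) * g := by group
        _ = g⁻¹ * (z * (g * q * g⁻¹)) * g := by rw [h3]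
        _ = _ := by group
    have h1' : (g⁻¹ * z * g) * (g⁻¹ * z * g) = 1 := by
      calc (g⁻¹ * z * g) * (g⁻¹ * z * g) = g⁻¹ * (z * z) * g := by group
        _ = 1 := by rw [S.zz]; group
    rcases S.cent _ h1 h1' with h2 | h2
    · have := Setup.conj_ne_one (g := g⁻¹) S.z1
      rw [inv_inv] at this
      exact this h2
    · apply htz
      rw [htg]
      calc g * z * g⁻¹ = g * (g⁻¹ * z * g) * g⁻¹ := by rw [h2]
        _ = z := by group
  obtain ⟨x, hxT₁, hxT₀, hxN⟩ := Cfsg.Agent.H17.exists_normalizer_not_mem hT₁p hlt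
  have hT₁t : T₀ ⊔ Qt ≤ Subgroup.centralizer {t} := by
    refine sup_le ?_ ?_
    · intro y hy
      exact Subgroup.mem_centralizer_singleton_iff.2 ((memA y).1 (hT₀A hy)).2
    · intro y hy
      exact Subgroup.mem_centralizer_singleton_iff.2 (hQtt y hy)
  have hxt : x * t = t * x := Subgroup.mem_centralizer_singleton_iff.1 (hT₁t hxT₁)
  refine ⟨x, hxt, ?_⟩
  have h1 : ∀ r ∈ Q, r * t = t * r → r * (x * z * x⁻¹) = (x * z * x⁻¹) * r := by
    intro r hr hrt
    have hrT : r ∈ T₀ := hRT₀ ((memR r).2 ⟨hr, hrt⟩)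
    have h2 : x⁻¹ * r * x ∈ T₀ := by
      have := (Subgroup.mem_normalizer_iff.1 (Subgroup.inv_mem _ hxN) r).1 hrT
      simpa using this
    have h3 := ((memA _).1 (hT₀A h2)).1
    calc r * (x * z * x⁻¹) = x * ((x⁻¹ * r * x) * z) * x⁻¹ := by group
      _ = x * (z * (x⁻¹ * r * x)) * x⁻¹ := by rw [h3]
      _ = _ := by group
  have h1' : (x * z * x⁻¹) * (x * z * x⁻¹) = 1 := by
    calc (x * z * x⁻¹) * (x * z * x⁻¹) = x * (z * z) * x⁻¹ := by group
      _ = 1 := by rw [S.zz]; group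
  rcases S.cent_R ht ht1 htz htt h1' h1 with h | h | h | h
  · exact absurd h (Setup.conj_ne_one S.z1)
  · exfalso
    have hxz : x * z = z * x := by
      calc x * z = (x * z * x⁻¹) * x := by group
        _ = z * x := by rw [h]
    have h4 : T₀ ⊔ Subgroup.zpowers x ≤ T₀ := by
      apply hmax
      · refine ⟨hT₁p.to_le (sup_le le_sup_left (Subgroup.zpowers_le.2 hxT₁)), ?_,
          hRT₀.trans le_sup_left⟩
        exact sup_le hT₀A (Subgroup.zpowers_le.2 ((memA x).2 ⟨hxz, hxt⟩))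
      · exact le_sup_left
    exact hxT₀ (h4 ((le_sup_right : Subgroup.zpowers x ≤ _) (Subgroup.mem_zpowers x)))
  · exfalso
    apply htz
    have : x * z * x⁻¹ = x * t * x⁻¹ := by
      rw [h, hxt]; group
    exact (mul_left_cancel (mul_right_cancel this)).symm
  · exact h

/-- an element of order three on `⟨z, t⟩`. -/
theorem exists_three [Finite G] (S : Setup4 Q z) {g t : G} (htg : t = g * z * g⁻¹) (ht : t ∈ Q)
    (htz : t ≠ z) : ∃ n, n * z * n⁻¹ = t ∧ n * t * n⁻¹ = z * t := by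
  have ht1 : t ≠ 1 := htg ▸ Setup.conj_ne_one S.z1
  have htt : t * t = 1 := by
    rw [htg]
    calc g * z * g⁻¹ * (g * z * g⁻¹) = g * (z * z) * g⁻¹ := by group
      _ = 1 := by rw [S.zz]; group
  obtain ⟨q₀, hq₀, hq₀t⟩ := S.exists_conj_mul ht ht1 htz htt
  obtain ⟨x, hxt, hxz⟩ := S.exists_swap htg ht htz
  have hzq : q₀ * z = z * q₀ := S.zc _ hq₀
  refine ⟨q₀ * x, ?_, ?_⟩
  · calc q₀ * x * z * (q₀ * x)⁻¹ = q₀ * (x * z * x⁻¹) * q₀⁻¹ := by group
      _ = q₀ * (t * z) * q₀⁻¹ := by rw [hxz]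
      _ = (q₀ * t * q₀⁻¹) * (q₀ * z) * q₀⁻¹ := by group
      _ = (z * t) * (z * q₀) * q₀⁻¹ := by rw [hq₀t, hzq]
      _ = z * (t * z) := by group
      _ = z * (z * t) := by rw [S.zc _ ht]
      _ = (z * z) * t := by group
      _ = t := by rw [S.zz, one_mul]
  · calc q₀ * x * t * (q₀ * x)⁻¹ = q₀ * (x * t) * x⁻¹ * q₀⁻¹ := by group
      _ = q₀ * (t * x) * x⁻¹ * q₀⁻¹ := by rw [hxt]
      _ = q₀ * t * q₀⁻¹ := by group
      _ = z * t := hq₀t

/-- `z` lies in the conjugate `Q^g`. -/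
theorem z_mem_conj [Finite G] (S : Setup4 Q z) {g : G} (ht : g * z * g⁻¹ ∈ Q)
    (htz : g * z * g⁻¹ ≠ z) : g⁻¹ * z * g ∈ Q := by
  obtain ⟨t, htg⟩ : ∃ t, t = g * z * g⁻¹ := ⟨_, rfl⟩
  rw [← htg] at ht htz
  obtain ⟨n, hnz, hnt⟩ := S.exists_three htg ht htz
  have h1 : (g⁻¹ * n) * z = z * (g⁻¹ * n) := by
    calc (g⁻¹ * n) * z = g⁻¹ * (n * z * n⁻¹) * n := by group
      _ = g⁻¹ * (g * z * g⁻¹) * n := by rw [hnz, htg]
      _ = _ := by group
  have h2 := (Subgroup.mem_normalizer_iff.1 (S.norm _ h1) t).1 ht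
  have h3 : g⁻¹ * n * t * (g⁻¹ * n)⁻¹ = g⁻¹ * (n * t * n⁻¹) * g := by group
  rw [h3, hnt] at h2
  have h4 : g⁻¹ * z * g = (g⁻¹ * (z * t) * g) * z := by
    have : z = g⁻¹ * t * g := by rw [htg]; group
    have htt : t * t = 1 := by
      rw [htg]
      calc g * z * g⁻¹ * (g * z * g⁻¹) = g * (z * z) * g⁻¹ := by group
        _ = 1 := by rw [S.zz]; group
    calc g⁻¹ * z * g = g⁻¹ * (z * (t * t)) * g := by rw [htt, mul_one]
      _ = (g⁻¹ * (z * t) * g) * (g⁻¹ * t * g) := by group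
      _ = _ := by rw [← this]
  rw [h4]
  exact Q.mul_mem h2 S.zQ

end Setup4

end Cfsg.Agent.Lib.Helper27.XS
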