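import Cfsg.Agent.Lib.Helper27.XS10

/-!
From `F*(C(z))` of symplectic type and exponent four to the elementwise hypotheses.
-/

set_option autoImplicit false

open Cfsg Subgroup
open scoped commutatorElement

namespace Cfsg.Agent.Lib.Helper27.XS

theorem Setup4.of_fstar_aux {G : Type*} [Group G] [Finite G] {z : G} (hz : orderOf z = 2)
    (C : Subgroup G) (hC : C = Subgroup.centralizer ({z} : Set G)) {Q : Subgroup G}
    (hF : (Cfsg.generalizedFittingSubgroup ↥C).map C.subtype = Q)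
    (hQ : Cfsg.IsOfSymplecticType ↥(Cfsg.generalizedFittingSubgroup ↥C))
    (h4 : ∀ q ∈ Q, q ^ 4 = 1) : Setup4 Q z := by
  have : Fact (Nat.Prime 2) := ⟨Nat.prime_two⟩
  have memC : ∀ x, x ∈ C ↔ x * z = z * x := by
    intro x; rw [hC]; exact Subgroup.mem_centralizer_singleton_iff
  have hz1 : z ≠ 1 := by rintro rfl; simp at hz
  have hzz : z * z = 1 := by rw [← pow_two, ← hz]; exact pow_orderOf_eq_one z
  have hcen := Cfsg.H9.centralizer_genFitting_le (G := ↥C)
  have memQ : ∀ x : ↥C, (x : G) ∈ Q ↔ x ∈ Cfsg.generalizedFittingSubgroup ↥C := by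
    intro x
    rw [← hF]
    constructor
    · rintro ⟨y, hy, hyx⟩
      have : y = x := Subtype.ext hyx
      rw [← this]; exact hy
    · intro h; exact ⟨x, h, rfl⟩
  have hQC : Q ≤ C := by
    rw [← hF]; exact Subgroup.map_subtype_le _
  have hcent : ∀ c, (∀ q ∈ Q, q * c = c * q) → c * z = z * c → c ∈ Q := by
    intro c hc hcz
    have hcC : c ∈ C := (memC c).2 hcz
    rw [memQ ⟨c, hcC⟩]
    apply hcen
    rw [Subgroup.mem_centralizer_iff]
    intro y hy
    exact Subtype.ext (hc y ((memQ y).2 hy))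
  have hzQ : z ∈ Q := hcent z (fun q hq => (memC q).1 (hQC hq)) rfl
  -- lifting
  have lift : ∀ a ∈ Q, ∃ a' : ↥(Cfsg.generalizedFittingSubgroup ↥C), ((a' : ↥C) : G) = a := by
    intro a ha
    exact ⟨⟨⟨a, hQC ha⟩, (memQ _).1 ha⟩, rfl⟩
  have down : ∀ a' : ↥(Cfsg.generalizedFittingSubgroup ↥C), ((a' : ↥C) : G) ∈ Q :=
    fun a' => (memQ _).2 a'.2
  have ext' : ∀ a' b' : ↥(Cfsg.generalizedFittingSubgroup ↥C), ((a' : ↥C) : G) = ((b' : ↥C) : G) →
      a' = b' := fun a' b' h => Subtype.ext (Subtype.ext h)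
  obtain ⟨z', hz'⟩ := lift z hzQ
  have hz'c : ∀ x : ↥(Cfsg.generalizedFittingSubgroup ↥C), x * z' = z' * x := by
    intro x
    apply ext'
    show ((x : ↥C) : G) * ((z' : ↥C) : G) = ((z' : ↥C) : G) * ((x : ↥C) : G)
    rw [hz']; exact (memC _).1 (hQC (down x))
  have hz'1 : z' ≠ 1 := by
    intro h; apply hz1; rw [← hz', h]; rfl
  have hz'z' : z' * z' = 1 := by
    apply ext'
    show ((z' : ↥C) : G) * ((z' : ↥C) : G) = 1
    rw [hz']; exact hzz
  have h4' : ∀ x : ↥(Cfsg.generalizedFittingSubgroup ↥C), x ^ 4 = 1 := by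
    intro x
    apply ext'
    show ((x : ↥C) : G) ^ 4 = 1
    exact h4 _ (down x)
  have hfr := Sym4.frattini_le hQ h4' hz'c hz'1 hz'z'
  have hge := Cfsg.H1.frattini_pgroup_ge 2 hQ.1
  refine ⟨hF ▸ hQ.1.map _, hzQ, hz1, hzz, fun q hq => (memC q).1 (hQC hq), ?_, ?_, ?_, ?_⟩
  · intro a ha b hb
    obtain ⟨a', rfl⟩ := lift a ha
    obtain ⟨b', rfl⟩ := lift b hb
    have h1 : ⁅a', b'⁆ ∈ frattini ↥(Cfsg.generalizedFittingSubgroup ↥C) :=
      hge.1 (Subgroup.commutator_mem_commutator (Subgroup.mem_top _) (Subgroup.mem_top _))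
    rcases hfr _ h1 with h | h
    · left
      have := commutatorElement_eq_one_iff_mul_comm.1 h
      exact congrArg (fun x : ↥(Cfsg.generalizedFittingSubgroup ↥C) => ((x : ↥C) : G)) this
    · right
      have h2 : a' * b' = z' * (b' * a') := by
        rw [← h, commutatorElement_def]; group
      have := congrArg (fun x : ↥(Cfsg.generalizedFittingSubgroup ↥C) => ((x : ↥C) : G)) h2
      rw [← hz']; exact this
  · intro a ha
    obtain ⟨a', rfl⟩ := lift a ha
    have h1 := hge.2 a'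
    rw [pow_two] at h1
    rcases hfr _ h1 with h | h
    · left
      exact congrArg (fun x : ↥(Cfsg.generalizedFittingSubgroup ↥C) => ((x : ↥C) : G)) h
    · right
      rw [← hz']
      exact congrArg (fun x : ↥(Cfsg.generalizedFittingSubgroup ↥C) => ((x : ↥C) : G)) h
  · intro c hc hcc
    have hcQ := hcent c hc (hc z hzQ).symm
    obtain ⟨c', rfl⟩ := lift c hcQ
    by_cases hc1 : c' = 1
    · left; rw [hc1]; rfl
    · right
      have hcyc : IsCyclic ↥(Subgroup.center ↥(Cfsg.generalizedFittingSubgroup ↥C)) :=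
        hQ.2 _ inferInstance inferInstance
      have hcZ : c' ∈ Subgroup.center ↥(Cfsg.generalizedFittingSubgroup ↥C) := by
        rw [Subgroup.mem_center_iff]
        intro x
        apply ext'
        exact hc _ (down x)
      have hzZ : z' ∈ Subgroup.center ↥(Cfsg.generalizedFittingSubgroup ↥C) :=
        Subgroup.mem_center_iff.2 hz'c
      have hcc' : c' * c' = 1 := ext' _ _ hcc
      have := Sym4.invol_unique_of_cyclic
        (A := ↥(Subgroup.center ↥(Cfsg.generalizedFittingSubgroup ↥C))) (a := ⟨c', hcZ⟩)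
        (u := ⟨z', hzZ⟩) (fun h => hc1 (congrArg Subtype.val h)) (Subtype.ext hcc')
        (fun h => hz'1 (congrArg Subtype.val h)) (Subtype.ext hz'z')
      have h2 : c' = z' := congrArg Subtype.val this
      rw [h2, hz']
  · intro c hc
    have hcC : c ∈ C := (memC c).2 hc
    apply mem_normalizer_of_conj_mem
    intro x hx
    have hxC := hQC hx
    have h1 := (memQ ⟨x, hxC⟩).1 hx
    have h2 := (inferInstance : (Cfsg.generalizedFittingSubgroup ↥C).Normal).conj_mem _ h1 ⟨c, hcC⟩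
    exact (memQ _).2 h2

theorem Setup4.of_fstar {G : Type*} [Group G] [Finite G] {z : G} (hz : orderOf z = 2)
    {Q : Subgroup G}
    (hF : (Cfsg.generalizedFittingSubgroup ↥(Subgroup.centralizer ({z} : Set G))).map
      (Subgroup.centralizer ({z} : Set G)).subtype = Q)
    (hQ : Cfsg.IsOfSymplecticType
      ↥(Cfsg.generalizedFittingSubgroup ↥(Subgroup.centralizer ({z} : Set G))))
    (h4 : ∀ q ∈ Q, q ^ 4 = 1) : Setup4 Q z :=
  Setup4.of_fstar_aux hz _ rfl hF hQ h4

end Cfsg.Agent.Lib.Helper27.XS
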