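import Cfsg.Agent.Lib.Helper27.XS2

/-!
A four-group whose normalizer induces the full automorphism group.
-/

set_option autoImplicit false

open Cfsg Subgroup

namespace Cfsg.Agent.Lib.Helper27.XS

variable {G : Type*} [Group G]

theorem mem_normalizer_of_conj_mem [Finite G] {H : Subgroup G} {g : G}
    (h : ∀ x ∈ H, g * x * g⁻¹ ∈ H) : g ∈ Subgroup.normalizer (H : Set G) := by
  rw [Subgroup.mem_normalizer_iff]
  intro y
  refine ⟨h y, fun hy => ?_⟩
  let f : ↥H → ↥H := fun x => ⟨g * x * g⁻¹, h x x.2⟩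
  have hinj : Function.Injective f := by
    intro a b hab
    have : g * a * g⁻¹ = g * b * g⁻¹ := congrArg Subtype.val hab
    exact Subtype.ext (mul_left_cancel (mul_right_cancel this))
  obtain ⟨x, hx⟩ := Finite.surjective_of_injective hinj ⟨_, hy⟩
  have : g * x * g⁻¹ = g * y * g⁻¹ := congrArg Subtype.val hx
  rw [← mul_left_cancel (mul_right_cancel this)]
  exact x.2

/-- The explicit four-group. -/
def four (z t : G) (zz : z * z = 1) (tt : t * t = 1) (tz : t * z = z * t) : Subgroup G where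
  carrier := {x | x = 1 ∨ x = z ∨ x = t ∨ x = z * t}
  one_mem' := Or.inl rfl
  mul_mem' := by
    have zz' : ∀ x, z * (z * x) = x := fun x => by rw [← mul_assoc, zz, one_mul]
    have tz' : ∀ x, t * (z * x) = z * (t * x) := fun x => by rw [← mul_assoc, tz, mul_assoc]
    rintro a b (rfl | rfl | rfl | rfl) (rfl | rfl | rfl | rfl) <;>
      simp only [Set.mem_ofPred_eq, mul_assoc, zz, tt, tz, zz', tz', one_mul, mul_one, true_or,
        or_true]
  inv_mem' := by
    have zi : z⁻¹ = z := inv_eq_of_mul_eq_one_left zz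
    have ti : t⁻¹ = t := inv_eq_of_mul_eq_one_left tt
    rintro a (rfl | rfl | rfl | rfl) <;>
      simp only [Set.mem_ofPred_eq, mul_inv_rev, zi, ti, tz, inv_one, true_or, or_true]

theorem mem_four {z t : G} {zz : z * z = 1} {tt : t * t = 1} {tz : t * z = z * t} {x : G} :
    x ∈ four z t zz tt tz ↔ x = 1 ∨ x = z ∨ x = t ∨ x = z * t := Iff.rfl

theorem relIndex_six [Finite G] {z t a n : G} {V : Subgroup G}
    (hV : ∀ x, x ∈ V ↔ x = 1 ∨ x = z ∨ x = t ∨ x = z * t)
    (hz1 : z ≠ 1) (ht1 : t ≠ 1) (hzt : z ≠ t) (zz : z * z = 1)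
    (ha1 : a * z * a⁻¹ = z) (ha2 : a * t * a⁻¹ = z * t)
    (hn1 : n * z * n⁻¹ = t) (hn2 : n * t * n⁻¹ = z * t) :
    (Subgroup.centralizer (V : Set G)).relIndex (Subgroup.normalizer (V : Set G)) = 6 := by
  have zz' : ∀ x, z * (z * x) = x := fun x => by rw [← mul_assoc, zz, one_mul]
  have tt : t * t = 1 := by
    rw [← hn1]
    calc n * z * n⁻¹ * (n * z * n⁻¹) = n * (z * z) * n⁻¹ := by group
      _ = 1 := by rw [zz]; group
  have tz : t * z = z * t := by
    have h1 : (z * t) * (z * t) = 1 := by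
      rw [← hn2]
      calc n * t * n⁻¹ * (n * t * n⁻¹) = n * (t * t) * n⁻¹ := by group
        _ = 1 := by rw [tt]; group
    calc t * z = (z * z) * (t * z) * (t * t) := by rw [zz, tt, one_mul, mul_one]
      _ = z * ((z * t) * (z * t)) * t := by group
      _ = z * t := by rw [h1, mul_one]
  have ha3 : a * (z * t) * a⁻¹ = t := by
    calc a * (z * t) * a⁻¹ = (a * z * a⁻¹) * (a * t * a⁻¹) := by group
      _ = t := by rw [ha1, ha2, zz']
  have hn3 : n * (z * t) * n⁻¹ = z := by
    calc n * (z * t) * n⁻¹ = (n * z * n⁻¹) * (n * t * n⁻¹) := by group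
      _ = t * (z * t) := by rw [hn1, hn2]
      _ = (t * z) * t := by group
      _ = z * (t * t) := by rw [tz]; group
      _ = z := by rw [tt, mul_one]
  have hzt1 : z * t ≠ 1 := by
    intro h
    apply hzt
    calc z = z * (t * t) := by rw [tt, mul_one]
      _ = (z * t) * t := by group
      _ = t := by rw [h, one_mul]
  obtain ⟨N, hN⟩ : ∃ N : Subgroup G, N = Subgroup.normalizer (V : Set G) := ⟨_, rfl⟩
  rw [← hN]
  have haN : a ∈ N := by
    rw [hN]
    apply mem_normalizer_of_conj_mem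
    intro x hx
    rw [hV] at hx ⊢
    rcases hx with rfl | rfl | rfl | rfl
    · left; group
    · right; left; exact ha1
    · right; right; right; exact ha2
    · right; right; left; exact ha3
  have hnN : n ∈ N := by
    rw [hN]
    apply mem_normalizer_of_conj_mem
    intro x hx
    rw [hV] at hx ⊢
    rcases hx with rfl | rfl | rfl | rfl
    · left; group
    · right; right; left; exact hn1
    · right; right; right; exact hn2
    · right; left; exact hn3
  let 𝒮 : Set G := {z, t, z * t}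
  have mem𝒮 : ∀ x, x ∈ 𝒮 ↔ x = z ∨ x = t ∨ x = z * t := by
    intro x; simp [𝒮]
  have key : ∀ m ∈ N, ∀ s ∈ 𝒮, m * s * m⁻¹ ∈ 𝒮 := by
    intro m hm s hs
    have hsV : s ∈ V := by
      rw [hV]; exact Or.inr ((mem𝒮 s).1 hs)
    have hs1 : s ≠ 1 := by
      rcases (mem𝒮 s).1 hs with rfl | rfl | rfl
      · exact hz1
      · exact ht1
      · exact hzt1
    have h1 := (Subgroup.mem_normalizer_iff.1 (hN ▸ hm) s).1 hsV
    rw [hV] at h1
    rcases h1 with h1 | h1
    · exact absurd h1 (Setup.conj_ne_one hs1)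
    · exact (mem𝒮 _).2 h1
  let act : MulAction ↥N ↥𝒮 :=
    { smul := fun m s => ⟨m * s * (m : G)⁻¹, key m m.2 s s.2⟩
      one_smul := fun s => Subtype.ext (by
        show ((1 : ↥N) : G) * s * ((1 : ↥N) : G)⁻¹ = s
        simp)
      mul_smul := fun m m' s => Subtype.ext (by
        show ((m * m' : ↥N) : G) * s * ((m * m' : ↥N) : G)⁻¹ = m * (m' * s * (m' : G)⁻¹) * (m : G)⁻¹
        rw [Subgroup.coe_mul]; group) }
  have smul_def' : ∀ (m : ↥N) (s : ↥𝒮), ((m • s : ↥𝒮) : G) = m * s * (m : G)⁻¹ := fun _ _ => rfl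
  let φ : ↥N →* Equiv.Perm ↥𝒮 := MulAction.toPermHom ↥N ↥𝒮
  have hφ : ∀ (m : ↥N) (s : ↥𝒮), ((φ m s : ↥𝒮) : G) = m * s * (m : G)⁻¹ := fun _ _ => rfl
  have hz𝒮 : z ∈ 𝒮 := (mem𝒮 z).2 (Or.inl rfl)
  have ht𝒮 : t ∈ 𝒮 := (mem𝒮 t).2 (Or.inr (Or.inl rfl))
  have memker : ∀ m : ↥N, φ m = 1 ↔ (m : G) * z * (m : G)⁻¹ = z ∧ (m : G) * t * (m : G)⁻¹ = t := by
    intro m
    constructor
    · intro h
      refine ⟨?_, ?_⟩
      · rw [← hφ m ⟨z, hz𝒮⟩, h]; rfl
      · rw [← hφ m ⟨t, ht𝒮⟩, h]; rfl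
    · rintro ⟨h1, h2⟩
      ext s
      rw [hφ]
      show _ = (s : G)
      rcases (mem𝒮 _).1 s.2 with h | h | h
      · rw [h, h1]
      · rw [h, h2]
      · rw [h]
        calc (m : G) * (z * t) * (m : G)⁻¹ = ((m : G) * z * (m : G)⁻¹) * ((m : G) * t * (m : G)⁻¹) := by
              group
          _ = z * t := by rw [h1, h2]
  have hker : φ.ker = (Subgroup.centralizer (V : Set G)).subgroupOf N := by
    ext m
    rw [MonoidHom.mem_ker, memker, Subgroup.mem_subgroupOf, Subgroup.mem_centralizer_iff]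
    constructor
    · rintro ⟨h1, h2⟩ y hy
      have e1 : (m : G) * z = z * m := by
        calc (m : G) * z = ((m : G) * z * (m : G)⁻¹) * m := by group
          _ = z * m := by rw [h1]
      have e2 : (m : G) * t = t * m := by
        calc (m : G) * t = ((m : G) * t * (m : G)⁻¹) * m := by group
          _ = t * m := by rw [h2]
      rcases (hV y).1 hy with rfl | rfl | rfl | rfl
      · simp
      · exact e1.symm
      · exact e2.symm
      · calc z * t * (m : G) = z * (t * m) := by group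
          _ = z * (m * t) := by rw [e2]
          _ = (z * m) * t := by group
          _ = (m * z) * t := by rw [e1]
          _ = _ := by group
    · intro h
      have e1 := h z ((hV z).2 (Or.inr (Or.inl rfl)))
      have e2 := h t ((hV t).2 (Or.inr (Or.inr (Or.inl rfl))))
      refine ⟨?_, ?_⟩
      · rw [← e1]; group
      · rw [← e2]; group
  have hcard𝒮 : Nat.card ↥𝒮 = 3 := by
    rw [Nat.card_coe_set_eq, Set.ncard_eq_three]
    refine ⟨z, t, z * t, hzt, ?_, ?_, rfl⟩
    · intro h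
      exact ht1 (mul_eq_left.1 h.symm)
    · intro h
      exact hz1 (mul_eq_right.1 h.symm)
  have hperm : Nat.card (Equiv.Perm ↥𝒮) = 6 := by
    rw [Nat.card_perm, hcard𝒮]; rfl
  rw [Subgroup.relIndex, ← hker, Subgroup.index_ker]
  have hdvd : Nat.card ↥φ.range ∣ 6 := hperm ▸ Subgroup.card_subgroup_dvd_card _
  have h2 : 2 ∣ Nat.card ↥φ.range := by
    have ho : orderOf (φ ⟨a, haN⟩) = 2 := by
      apply orderOf_eq_prime
      · rw [← map_pow, memker]
        refine ⟨?_, ?_⟩
        · show (a ^ 2) * z * (a ^ 2)⁻¹ = z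
          calc (a ^ 2) * z * (a ^ 2)⁻¹ = a * (a * z * a⁻¹) * a⁻¹ := by
                simp only [pow_succ, pow_zero, one_mul, mul_inv_rev, mul_assoc]
            _ = z := by rw [ha1, ha1]
        · show (a ^ 2) * t * (a ^ 2)⁻¹ = t
          calc (a ^ 2) * t * (a ^ 2)⁻¹ = a * (a * t * a⁻¹) * a⁻¹ := by
                simp only [pow_succ, pow_zero, one_mul, mul_inv_rev, mul_assoc]
            _ = t := by rw [ha2, ha3]
      · rw [Ne, memker]
        rintro ⟨-, h⟩
        have h' : a * t * a⁻¹ = t := h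
        rw [ha2] at h'
        exact hz1 (mul_eq_right.1 h')
    have hm : φ ⟨a, haN⟩ ∈ φ.range := ⟨_, rfl⟩
    rw [← ho, ← Subgroup.orderOf_mk (φ ⟨a, haN⟩) hm]
    exact orderOf_dvd_natCard _
  have h3 : 3 ∣ Nat.card ↥φ.range := by
    have ho : orderOf (φ ⟨n, hnN⟩) = 3 := by
      have : Fact (Nat.Prime 3) := ⟨Nat.prime_three⟩
      apply orderOf_eq_prime
      · rw [← map_pow, memker]
        refine ⟨?_, ?_⟩
        · show (n ^ 3) * z * (n ^ 3)⁻¹ = z
          calc (n ^ 3) * z * (n ^ 3)⁻¹ = n * (n * (n * z * n⁻¹) * n⁻¹) * n⁻¹ := by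
                simp only [pow_succ, pow_zero, one_mul, mul_inv_rev, mul_assoc]
            _ = z := by rw [hn1, hn2, hn3]
        · show (n ^ 3) * t * (n ^ 3)⁻¹ = t
          calc (n ^ 3) * t * (n ^ 3)⁻¹ = n * (n * (n * t * n⁻¹) * n⁻¹) * n⁻¹ := by
                simp only [pow_succ, pow_zero, one_mul, mul_inv_rev, mul_assoc]
            _ = t := by rw [hn2, hn3, hn1]
      · rw [Ne, memker]
        rintro ⟨h, -⟩
        have h' : n * z * n⁻¹ = z := h
        rw [hn1] at h'
        exact hzt h'.symm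
    have hm : φ ⟨n, hnN⟩ ∈ φ.range := ⟨_, rfl⟩
    rw [← ho, ← Subgroup.orderOf_mk (φ ⟨n, hnN⟩) hm]
    exact orderOf_dvd_natCard _
  have h6 : 6 ∣ Nat.card ↥φ.range :=
    Nat.Coprime.mul_dvd_of_dvd_of_dvd (by decide : Nat.Coprime 2 3) h2 h3
  exact Nat.dvd_antisymm hdvd h6

end Cfsg.Agent.Lib.Helper27.XS
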