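import Cfsg.Agent.Lib.Helper27.XS3
import Cfsg.Agent.H9.FStar

/-!
Normal subgroups of groups with an extraspecial `F*(C(z))`.
-/

set_option autoImplicit false

open Cfsg Subgroup
open scoped commutatorElement

namespace Cfsg.Agent.Lib.Helper27.XS

/-- From `F*(C(z)) = Q` extraspecial to the elementwise hypotheses. -/
theorem Setup.of_fstar {G : Type*} [Group G] [Finite G] {z : G} (hz : orderOf z = 2) {Q : Subgroup G}
    (hF : (Cfsg.generalizedFittingSubgroup ↥(Subgroup.centralizer ({z} : Set G))).map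
      (Subgroup.centralizer ({z} : Set G)).subtype = Q) (hQ : Cfsg.IsExtraspecial 2 ↥Q) :
    Setup Q z := by
  obtain ⟨C, hC⟩ : ∃ C : Subgroup G, C = Subgroup.centralizer ({z} : Set G) := ⟨_, rfl⟩
  rw [← hC] at hF
  have memC : ∀ x, x ∈ C ↔ x * z = z * x := by
    intro x; rw [hC]; exact Subgroup.mem_centralizer_singleton_iff
  have hz1 : z ≠ 1 := by rintro rfl; simp at hz
  have hcen := Cfsg.H9.centralizer_genFitting_le (G := ↥C)
  have memQ : ∀ x : ↥C, (x : G) ∈ Q ↔ x ∈ Cfsg.generalizedFittingSubgroup ↥C := by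
    intro x
    rw [← hF]
    constructor
    · rintro ⟨y, hy, hyx⟩
      have : y = x := Subtype.ext hyx
      rw [← this]; exact hy
    · intro h; exact ⟨x, h, rfl⟩
  have hQC : Q ≤ C := by
    rw [← hF]; exact Subgroup.map_subtype_le _
  have hcent : ∀ c, (∀ q ∈ Q, q * c = c * q) → c * z = z * c → c ∈ Q := by
    intro c hc hcz
    have hcC : c ∈ C := (memC c).2 hcz
    rw [memQ ⟨c, hcC⟩]
    apply hcen
    rw [Subgroup.mem_centralizer_iff]
    intro y hy
    exact Subtype.ext (hc y ((memQ y).2 hy))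
  have hzQ : z ∈ Q := hcent z (fun q hq => (memC q).1 (hQC hq)) rfl
  have hzZ : z ∈ (Subgroup.center ↥Q).map Q.subtype :=
    mem_Z_iff.2 ⟨hzQ, fun q hq => (memC q).1 (hQC hq)⟩
  refine ⟨hQ, hzZ, hz1, ?_, ?_⟩
  · intro c hc
    have hcQ := hcent c hc (hc z hzQ).symm
    exact eq_of_mem_Z hQ hzZ hz1 (mem_Z_iff.2 ⟨hcQ, hc⟩)
  · intro c hc
    have hcC : c ∈ C := (memC c).2 hc
    apply mem_normalizer_of_conj_mem
    intro x hx
    have hxC := hQC hx
    have h1 := (memQ ⟨x, hxC⟩).1 hx
    have h2 := (inferInstance : (Cfsg.generalizedFittingSubgroup ↥C).Normal).conj_mem _ h1 ⟨c, hcC⟩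
    exact (memQ _).2 h2

variable {G : Type*} [Group G]

namespace Setup

variable {Q : Subgroup G} {z : G}

theorem hL2 (S : Setup Q z) :
    Subgroup.centralizer (Q : Set G) = ((Subgroup.center ↥Q).map Q.subtype) := by
  ext c
  rw [Subgroup.mem_centralizer_iff, S.mem_Z]
  constructor
  · exact S.cent c
  · rintro (rfl | rfl)
    · intro q _; simp
    · intro q hq; exact S.zc hq

theorem hL3 (S : Setup Q z) :
    Subgroup.centralizer (((Subgroup.center ↥Q).map Q.subtype) : Set G) ≤
      Subgroup.normalizer (Q : Set G) := by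
  intro c hc
  exact S.norm c (Subgroup.mem_centralizer_iff.1 hc z S.zZ).symm

/-- A normal subgroup meeting `C(z)` nontrivially contains `z`. -/
theorem z_mem_of_normal (S : Setup Q z) {N : Subgroup G} (hN : N.Normal) {n : G} (hn : n ∈ N)
    (hn1 : n ≠ 1) (hnz : n * z = z * n) : z ∈ N := by
  have hx : ∃ x, x ∈ N ∧ x ∈ Q ∧ x ≠ 1 := by
    by_cases hc : ∀ q ∈ Q, q * n = n * q
    · rcases S.cent n hc with h | h
      · exact absurd h hn1
      · exact ⟨n, hn, h ▸ S.zQ, hn1⟩
    · push Not at hc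
      obtain ⟨q, hq, hne⟩ := hc
      refine ⟨⁅n, q⁆, ?_, ?_, ?_⟩
      · rw [commutatorElement_def]
        have := N.mul_mem hn (hN.conj_mem _ (N.inv_mem hn) q)
        simpa [mul_assoc] using this
      · rw [commutatorElement_def]
        exact Q.mul_mem ((Subgroup.mem_normalizer_iff.1 (S.norm n hnz) q).1 hq) (Q.inv_mem hq)
      · rw [Ne, commutatorElement_eq_one_iff_mul_comm]; exact fun h => hne h.symm
  obtain ⟨x, hxN, hxQ, hx1⟩ := hx
  by_cases hxZ : x ∈ (Subgroup.center ↥Q).map Q.subtype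
  · rcases S.mem_Z.1 hxZ with h | h
    · exact absurd h hx1
    · exact h ▸ hxN
  · obtain ⟨q', hq', hq'x⟩ := exists_conj_mul S.ex S.zZ S.z1 hxQ hxZ
    have : z = q' * x * q'⁻¹ * x⁻¹ := by rw [hq'x]; group
    rw [this]; exact N.mul_mem (hN.conj_mem _ hxN _) (N.inv_mem hxN)

/-- A normal subgroup containing `C(z)` is everything. -/
theorem eq_top_of_centralizer_le [Finite G] (S : Setup Q z) {N : Subgroup G} (hN : N.Normal)
    (hHN : ∀ x, x * z = z * x → x ∈ N) : N = ⊤ := by
  have hp2 : Fact (Nat.Prime 2) := ⟨Nat.prime_two⟩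
  obtain ⟨P, hQP⟩ := S.ex.1.1.exists_le_sylow
  have hPz : ∀ c : G, c ≠ 1 → (∀ x ∈ (P : Subgroup G), x * c = c * x) → c = z := by
    intro c hc1 hc
    rcases S.cent c (fun q hq => hc _ (hQP hq)) with h | h
    · exact absurd h hc1
    · exact h
  have hPnt : Nontrivial ↥(P : Subgroup G) :=
    ⟨⟨⟨z, hQP S.zQ⟩, 1, fun h => S.z1 (congrArg Subtype.val h)⟩⟩
  have hcenP := P.2.center_nontrivial
  obtain ⟨c, hc⟩ := exists_ne (1 : Subgroup.center ↥(P : Subgroup G))
  have hzP : ∀ x ∈ (P : Subgroup G), x * z = z * x := by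
    have hcz : ((c : ↥(P : Subgroup G)) : G) = z := by
      apply hPz
      · intro h
        apply hc
        exact Subtype.ext (Subtype.ext h)
      · intro x hx
        have := Subgroup.mem_center_iff.1 c.2 ⟨x, hx⟩
        exact congrArg Subtype.val this
    intro x hx
    rw [← hcz]
    have := Subgroup.mem_center_iff.1 c.2 ⟨x, hx⟩
    exact congrArg Subtype.val this
  have hNP : Subgroup.normalizer ((P : Subgroup G) : Set G) ≤ N := by
    intro x hx
    apply hHN
    have h1 : x * z * x⁻¹ = z := by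
      apply hPz
      · exact conj_ne_one S.z1
      · intro y hy
        have hy' : x⁻¹ * y * x ∈ (P : Subgroup G) := by
          have := (Subgroup.mem_normalizer_iff.1 (Subgroup.inv_mem _ hx) y).1 hy
          simpa using this
        have h2 := hzP _ hy'
        calc y * (x * z * x⁻¹) = x * ((x⁻¹ * y * x) * z) * x⁻¹ := by group
          _ = x * (z * (x⁻¹ * y * x)) * x⁻¹ := by rw [h2]
          _ = x * z * x⁻¹ * y := by group
    calc x * z = (x * z * x⁻¹) * x := by group
      _ = z * x := by rw [h1]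
  have hfr := Sylow.normalizer_sup_eq_top' P (fun x hx => hHN x (hzP x hx))
  rw [eq_top_iff, ← hfr]
  exact sup_le hNP le_rfl

/-- If `Q` normalizes no nontrivial subgroup of odd order, nontrivial normal subgroups meet `C(z)`. -/
theorem exists_fixed_of_large [Finite G] (S : Setup Q z)
    (hl : ∀ K : Subgroup G, Odd (Nat.card K) → Q ≤ Subgroup.normalizer (K : Set G) → K = ⊥)
    {N : Subgroup G} (hN : N.Normal) (hN1 : N ≠ ⊥) : ∃ n ∈ N, n ≠ 1 ∧ n * z = z * n := by
  have hp2 : Fact (Nat.Prime 2) := ⟨Nat.prime_two⟩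
  by_contra hno
  push Not at hno
  have hfix : ∀ n ∈ N, n * z = z * n → n = 1 := by
    intro n hn h
    by_contra hn1
    exact hno n hn hn1 h
  have hinv := inverts_of_fpf N S.zz hfix
  apply hN1
  apply hl
  · by_contra hodd
    rw [Nat.not_odd_iff_even, even_iff_two_dvd] at hodd
    obtain ⟨⟨n, hn⟩, ho⟩ := exists_prime_orderOf_dvd_card' 2 hodd
    have hn2 : n * n = 1 := by
      have h1 : (⟨n, hn⟩ : ↥N) ^ 2 = 1 := by rw [← ho]; exact pow_orderOf_eq_one _
      have h2 : n ^ 2 = 1 := congrArg Subtype.val h1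
      rwa [pow_two] at h2
    have hn1 : n ≠ 1 := by
      rintro rfl
      have : (⟨1, hn⟩ : ↥N) = 1 := rfl
      rw [this, orderOf_one] at ho
      exact absurd ho (by decide)
    apply hno n hn hn1
    have h3 := hinv n hn
    rw [inv_eq_of_mul_eq_one_left hn2] at h3
    calc n * z = (z * n * z⁻¹) * z := by rw [h3]
      _ = z * n := by group
  · intro q _
    exact Subgroup.normalizer_eq_top_iff.2 hN ▸ Subgroup.mem_top q

end Setup

end Cfsg.Agent.Lib.Helper27.XS
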