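import Cfsg.Agent.Lib.Helper27.XS4

/-!
Transport of the extraspecial set-up under conjugation; commutator inductions.
-/

set_option autoImplicit false

open Cfsg Subgroup
open scoped commutatorElement

namespace Cfsg.Agent.Lib.Helper27.XS

theorem frattini_comap_equiv {X R : Type*} [Group X] [Group R] (e : X ≃* R) :
    frattini X = (frattini R).comap e.toMonoidHom := by
  apply le_antisymm
  · exact frattini_le_comap_frattini_of_surjective (φ := e.toMonoidHom) e.surjective
  · have h := frattini_le_comap_frattini_of_surjective (φ := e.symm.toMonoidHom) e.symm.surjective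
    intro x hx
    have h1 := h (mem_comap.mp hx)
    rw [mem_comap] at h1
    simpa using h1

theorem center_comap_equiv {X R : Type*} [Group X] [Group R] (e : X ≃* R) :
    Subgroup.center X = (Subgroup.center R).comap e.toMonoidHom := by
  ext x
  rw [Subgroup.mem_comap, Subgroup.mem_center_iff, Subgroup.mem_center_iff]
  constructor
  · intro h y
    obtain ⟨y', rfl⟩ := e.surjective y
    have := congrArg e (h y')
    simpa using this
  · intro h y
    have := h (e y)
    apply e.injective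
    simpa using this

theorem commutator_comap_equiv {X R : Type*} [Group X] [Group R] (e : X ≃* R) :
    commutator X = (commutator R).comap e.toMonoidHom := by
  have h : (commutator X).map e.toMonoidHom = commutator R := by
    rw [_root_.commutator_def, Subgroup.map_commutator, _root_.commutator_def,
      Subgroup.map_top_of_surjective _ e.surjective]
  rw [← h, Subgroup.comap_map_eq_self_of_injective e.injective]

theorem isExtraspecial_of_equiv {X R : Type*} [Group X] [Group R] {p : ℕ} (e : X ≃* R)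
    (h : Cfsg.IsExtraspecial p X) : Cfsg.IsExtraspecial p R := by
  have hinj := Subgroup.comap_injective (f := e.toMonoidHom) e.surjective
  refine ⟨⟨h.1.1.of_equiv e, ?_, ?_⟩, ?_⟩
  · apply hinj
    rw [← frattini_comap_equiv, ← center_comap_equiv]; exact h.1.2.1
  · apply hinj
    rw [← commutator_comap_equiv, ← center_comap_equiv]; exact h.1.2.2
  · have h1 : (Subgroup.center X).map e.toMonoidHom = Subgroup.center R := by
      rw [center_comap_equiv e, Subgroup.map_comap_eq_self_of_surjective e.surjective]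
    rw [← h.2, ← h1, Subgroup.card_map_of_injective e.injective]

variable {G : Type*} [Group G]

theorem mem_conj_iff {H : Subgroup G} {g x : G} :
    x ∈ H.map (MulAut.conj g).toMonoidHom ↔ g⁻¹ * x * g ∈ H := Cfsg.Agent.H17.mem_map_conj_iff

theorem Setup.conj [Finite G] {Q : Subgroup G} {z : G} (S : Setup Q z) (g : G) :
    Setup (Q.map (MulAut.conj g).toMonoidHom) (g * z * g⁻¹) := by
  have hzc : ∀ y ∈ Q.map (MulAut.conj g).toMonoidHom, y * (g * z * g⁻¹) = (g * z * g⁻¹) * y := by
    intro y hy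
    have h1 := S.zc (mem_conj_iff.1 hy)
    calc y * (g * z * g⁻¹) = g * ((g⁻¹ * y * g) * z) * g⁻¹ := by group
      _ = g * (z * (g⁻¹ * y * g)) * g⁻¹ := by rw [h1]
      _ = _ := by group
  refine ⟨isExtraspecial_of_equiv
    (Q.equivMapOfInjective (MulAut.conj g).toMonoidHom (MulAut.conj g).injective) S.ex, ?_,
    Setup.conj_ne_one S.z1, ?_, ?_⟩
  · refine mem_Z_iff.2 ⟨mem_conj_iff.2 ?_, hzc⟩
    have : g⁻¹ * (g * z * g⁻¹) * g = z := by group
    rw [this]; exact S.zQ
  · intro c hc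
    have h1 : ∀ q ∈ Q, q * (g⁻¹ * c * g) = (g⁻¹ * c * g) * q := by
      intro q hq
      have h2 : g * q * g⁻¹ ∈ Q.map (MulAut.conj g).toMonoidHom := by
        rw [mem_conj_iff]
        have : g⁻¹ * (g * q * g⁻¹) * g = q := by group
        rw [this]; exact hq
      have h3 := hc _ h2
      calc q * (g⁻¹ * c * g) = g⁻¹ * ((g * q * g⁻¹) * c) * g := by group
        _ = g⁻¹ * (c * (g * q * g⁻¹)) * g := by rw [h3]
        _ = _ := by group
    rcases S.cent _ h1 with h | h
    · left
      calc c = g * (g⁻¹ * c * g) * g⁻¹ := by group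
        _ = 1 := by rw [h]; group
    · right
      calc c = g * (g⁻¹ * c * g) * g⁻¹ := by group
        _ = _ := by rw [h]
  · intro c hc
    have h1 : (g⁻¹ * c * g) * z = z * (g⁻¹ * c * g) := by
      calc (g⁻¹ * c * g) * z = g⁻¹ * (c * (g * z * g⁻¹)) * g := by group
        _ = g⁻¹ * ((g * z * g⁻¹) * c) * g := by rw [hc]
        _ = _ := by group
    have h2 := S.norm _ h1
    rw [Subgroup.mem_normalizer_iff]
    intro y
    rw [mem_conj_iff, mem_conj_iff, Subgroup.mem_normalizer_iff.1 h2 (g⁻¹ * y * g)]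
    have : g⁻¹ * c * g * (g⁻¹ * y * g) * (g⁻¹ * c * g)⁻¹ = g⁻¹ * (c * y * c⁻¹) * g := by group
    rw [this]

/-- induction on the left entry of a commutator. -/
theorem comm_mem_left {W : Subgroup G} {S₀ : Set G} {y : G}
    (hN : S₀ ⊆ Subgroup.normalizer (W : Set G)) (h : ∀ x ∈ S₀, x * y * x⁻¹ * y⁻¹ ∈ W) :
    ∀ x ∈ Subgroup.closure S₀, x * y * x⁻¹ * y⁻¹ ∈ W := by
  have hN' : Subgroup.closure S₀ ≤ Subgroup.normalizer (W : Set G) := (Subgroup.closure_le _).2 hN
  intro x hx
  induction hx using Subgroup.closure_induction with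
  | mem a ha => exact h a ha
  | one => simp
  | mul a b ha _ iha ihb =>
    have e : a * b * y * (a * b)⁻¹ * y⁻¹ = (a * (b * y * b⁻¹ * y⁻¹) * a⁻¹) * (a * y * a⁻¹ * y⁻¹) := by
      group
    rw [e]
    exact W.mul_mem ((Subgroup.mem_normalizer_iff.1 (hN' ha) _).1 ihb) iha
  | inv a ha iha =>
    have e : a⁻¹ * y * a⁻¹⁻¹ * y⁻¹ = a⁻¹ * (a * y * a⁻¹ * y⁻¹)⁻¹ * a⁻¹⁻¹ := by group
    rw [e]
    exact (Subgroup.mem_normalizer_iff.1 (Subgroup.inv_mem _ (hN' ha)) _).1 (W.inv_mem iha)

/-- induction on the right entry of a commutator. -/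
theorem comm_mem_right {W : Subgroup G} {S₀ : Set G} {x : G}
    (hN : S₀ ⊆ Subgroup.normalizer (W : Set G)) (h : ∀ y ∈ S₀, x * y * x⁻¹ * y⁻¹ ∈ W) :
    ∀ y ∈ Subgroup.closure S₀, x * y * x⁻¹ * y⁻¹ ∈ W := by
  have hN' : Subgroup.closure S₀ ≤ Subgroup.normalizer (W : Set G) := (Subgroup.closure_le _).2 hN
  intro y hy
  induction hy using Subgroup.closure_induction with
  | mem a ha => exact h a ha
  | one => simp
  | mul a b ha _ iha ihb =>
    have e : x * (a * b) * x⁻¹ * (a * b)⁻¹ = (x * a * x⁻¹ * a⁻¹) * (a * (x * b * x⁻¹ * b⁻¹) * a⁻¹) := by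
      group
    rw [e]
    exact W.mul_mem iha ((Subgroup.mem_normalizer_iff.1 (hN' ha) _).1 ihb)
  | inv a ha iha =>
    have e : x * a⁻¹ * x⁻¹ * a⁻¹⁻¹ = a⁻¹ * (x * a * x⁻¹ * a⁻¹)⁻¹ * a⁻¹⁻¹ := by group
    rw [e]
    exact (Subgroup.mem_normalizer_iff.1 (Subgroup.inv_mem _ (hN' ha)) _).1 (W.inv_mem iha)

theorem comm_mem_closure {W : Subgroup G} {S₀ : Set G}
    (hN : S₀ ⊆ Subgroup.normalizer (W : Set G)) (h : ∀ x ∈ S₀, ∀ y ∈ S₀, x * y * x⁻¹ * y⁻¹ ∈ W) :
    ∀ x ∈ Subgroup.closure S₀, ∀ y ∈ Subgroup.closure S₀, x * y * x⁻¹ * y⁻¹ ∈ W := by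
  intro x hx y hy
  refine comm_mem_right hN ?_ y hy
  intro b hb
  exact comm_mem_left hN (fun a ha => h a ha b hb) x hx

theorem sq_mem_closure {W : Subgroup G} {S₀ : Set G}
    (hN : S₀ ⊆ Subgroup.normalizer (W : Set G)) (h : ∀ x ∈ S₀, ∀ y ∈ S₀, x * y * x⁻¹ * y⁻¹ ∈ W)
    (hsq : ∀ x ∈ S₀, x * x ∈ W) : ∀ x ∈ Subgroup.closure S₀, x * x ∈ W := by
  have hc := comm_mem_closure hN h
  intro x hx
  induction hx using Subgroup.closure_induction with
  | mem a ha => exact hsq a ha
  | one => simp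
  | mul a b ha hb iha ihb =>
    have e : a * b * (a * b) = (a * a) * (a⁻¹ * b * a⁻¹⁻¹ * b⁻¹) * (b * b) := by group
    rw [e]
    exact W.mul_mem (W.mul_mem iha (hc _ (Subgroup.inv_mem _ ha) _ hb)) ihb
  | inv a _ iha =>
    have e : a⁻¹ * a⁻¹ = (a * a)⁻¹ := by group
    rw [e]; exact W.inv_mem iha

theorem closure_pair_eq_four {z t : G} (zz : z * z = 1) (tt : t * t = 1) (tz : t * z = z * t) :
    Subgroup.closure ({z, t} : Set G) = four z t zz tt tz := by
  apply le_antisymm
  · rw [Subgroup.closure_le]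
    rintro x (rfl | rfl)
    · exact Or.inr (Or.inl rfl)
    · exact Or.inr (Or.inr (Or.inl rfl))
  · intro x hx
    have h1 : z ∈ Subgroup.closure ({z, t} : Set G) := Subgroup.subset_closure (by simp)
    have h2 : t ∈ Subgroup.closure ({z, t} : Set G) := Subgroup.subset_closure (by simp)
    rcases mem_four.1 hx with rfl | rfl | rfl | rfl
    · exact Subgroup.one_mem _
    · exact h1
    · exact h2
    · exact Subgroup.mul_mem _ h1 h2

end Cfsg.Agent.Lib.Helper27.XS
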