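import Cfsg.Agent.Lib.Helper27.XS5

/-!
Groups generated by two involutions with braid relation; the action of `N(V)` on a four-group as a
homomorphism onto `S₃`.
-/

set_option autoImplicit false

open Cfsg Subgroup

namespace Cfsg.Agent.Lib.Helper27.XS

theorem six_of_rel {Γ : Type*} [Group Γ] {a b : Γ} (ha : a * a = 1) (hb : b * b = 1)
    (hab : b * a * b = a * b * a) :
    ∀ x ∈ Subgroup.closure ({a, b} : Set Γ),
      x = 1 ∨ x = a ∨ x = b ∨ x = a * b ∨ x = b * a ∨ x = a * b * a := by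
  have hai : a⁻¹ = a := inv_eq_of_mul_eq_one_left ha
  have hbi : b⁻¹ = b := inv_eq_of_mul_eq_one_left hb
  have stepa : ∀ y, (y = 1 ∨ y = a ∨ y = b ∨ y = a * b ∨ y = b * a ∨ y = a * b * a) →
      (a * y = 1 ∨ a * y = a ∨ a * y = b ∨ a * y = a * b ∨ a * y = b * a ∨ a * y = a * b * a) := by
    rintro y (rfl | rfl | rfl | rfl | rfl | rfl)
    · right; left; rw [mul_one]
    · left; exact ha
    · right; right; right; left; rfl
    · right; right; left; rw [← mul_assoc, ha, one_mul]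
    · right; right; right; right; right; rw [mul_assoc]
    · right; right; right; right; left
      rw [mul_assoc a b a, ← mul_assoc a a, ha, one_mul]
  have stepb : ∀ y, (y = 1 ∨ y = a ∨ y = b ∨ y = a * b ∨ y = b * a ∨ y = a * b * a) →
      (b * y = 1 ∨ b * y = a ∨ b * y = b ∨ b * y = a * b ∨ b * y = b * a ∨ b * y = a * b * a) := by
    rintro y (rfl | rfl | rfl | rfl | rfl | rfl)
    · right; right; left; rw [mul_one]
    · right; right; right; right; left; rfl
    · left; exact hb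
    · right; right; right; right; right; rw [← mul_assoc, hab]
    · right; left; rw [← mul_assoc, hb, one_mul]
    · right; right; right; left
      calc b * (a * b * a) = (b * a * b) * a := by group
        _ = (a * b * a) * a := by rw [hab]
        _ = a * b * (a * a) := by group
        _ = a * b := by rw [ha, mul_one]
  intro x hx
  induction hx using Subgroup.closure_induction_left with
  | one => exact Or.inl rfl
  | mul_left s hs y _ ih =>
    rcases hs with rfl | rfl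
    · exact stepa y ih
    · exact stepb y ih
  | inv_mul_cancel s hs y _ ih =>
    rcases hs with rfl | rfl
    · rw [hai]; exact stepa y ih
    · rw [hbi]; exact stepb y ih

set_option maxRecDepth 100000 in
/-- A normal `2`-subgroup of `S₃` is trivial (elementwise form). -/
theorem perm3_eq_one (σ : Equiv.Perm (Fin 3)) (h1 : σ ^ 2 = 1)
    (h2 : ∀ τ : Equiv.Perm (Fin 3), (σ * (τ * σ * τ⁻¹)) ^ 2 = 1) : σ = 1 := by
  revert σ
  decide

set_option maxRecDepth 100000 in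
theorem perm3_pow_six (σ : Equiv.Perm (Fin 3)) : σ ^ 6 = 1 := by
  revert σ
  decide

theorem perm3_sq_of_two_pow (σ : Equiv.Perm (Fin 3)) {k : ℕ} (h : σ ^ 2 ^ k = 1) : σ ^ 2 = 1 := by
  have h6 : σ ^ 6 = 1 := perm3_pow_six σ
  have h1 : orderOf σ ∣ 2 ^ k := orderOf_dvd_of_pow_eq_one h
  have h2 : orderOf σ ∣ 6 := orderOf_dvd_of_pow_eq_one h6
  have h3 : orderOf σ ∣ 2 := by
    have h4 : orderOf σ ∣ Nat.gcd (2 ^ k) 6 := Nat.dvd_gcd h1 h2
    have h5 : Nat.gcd (2 ^ k) 6 ∣ 2 := by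
      have : Nat.Coprime (2 ^ k) 3 := Nat.Coprime.pow_left _ (by decide)
      have e : (6 : ℕ) = 3 * 2 := rfl
      rw [e, Nat.Coprime.gcd_mul_left_cancel_right _ this.symm]
      exact Nat.gcd_dvd_right _ _
    exact h4.trans h5
  exact orderOf_dvd_iff_pow_eq_one.1 h3

variable {G : Type*} [Group G]

/-- The action of `N(V)` on the involutions of a four-group `V`, as a map to `S₃`. -/
theorem exists_hom_perm3 [Finite G] {z t a n : G} {V : Subgroup G}
    (hV : ∀ x, x ∈ V ↔ x = 1 ∨ x = z ∨ x = t ∨ x = z * t)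
    (hz1 : z ≠ 1) (ht1 : t ≠ 1) (hzt : z ≠ t) (zz : z * z = 1)
    (ha1 : a * z * a⁻¹ = z) (ha2 : a * t * a⁻¹ = z * t)
    (hn1 : n * z * n⁻¹ = t) (hn2 : n * t * n⁻¹ = z * t) :
    ∃ ψ : ↥(Subgroup.normalizer (V : Set G)) →* Equiv.Perm (Fin 3),
      (∀ m, ψ m = 1 ↔ (m : G) * z = z * m ∧ (m : G) * t = t * m) ∧
      ∀ K : Subgroup ↥(Subgroup.normalizer (V : Set G)),
        (∃ h, (⟨a, h⟩ : ↥(Subgroup.normalizer (V : Set G))) ∈ K) →
        (∃ h, (⟨n, h⟩ : ↥(Subgroup.normalizer (V : Set G))) ∈ K) → K.map ψ = ⊤ := by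
  have zz' : ∀ x, z * (z * x) = x := fun x => by rw [← mul_assoc, zz, one_mul]
  have tt : t * t = 1 := by
    rw [← hn1]
    calc n * z * n⁻¹ * (n * z * n⁻¹) = n * (z * z) * n⁻¹ := by group
      _ = 1 := by rw [zz]; group
  have tz : t * z = z * t := by
    have h1 : (z * t) * (z * t) = 1 := by
      rw [← hn2]
      calc n * t * n⁻¹ * (n * t * n⁻¹) = n * (t * t) * n⁻¹ := by group
        _ = 1 := by rw [tt]; group
    calc t * z = (z * z) * (t * z) * (t * t) := by rw [zz, tt, one_mul, mul_one]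
      _ = z * ((z * t) * (z * t)) * t := by group
      _ = z * t := by rw [h1, mul_one]
  have ha3 : a * (z * t) * a⁻¹ = t := by
    calc a * (z * t) * a⁻¹ = (a * z * a⁻¹) * (a * t * a⁻¹) := by group
      _ = t := by rw [ha1, ha2, zz']
  have hn3 : n * (z * t) * n⁻¹ = z := by
    calc n * (z * t) * n⁻¹ = (n * z * n⁻¹) * (n * t * n⁻¹) := by group
      _ = t * (z * t) := by rw [hn1, hn2]
      _ = (t * z) * t := by group
      _ = z * (t * t) := by rw [tz]; group
      _ = z := by rw [tt, mul_one]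
  have hzt1 : z * t ≠ 1 := by
    intro h
    apply hzt
    calc z = z * (t * t) := by rw [tt, mul_one]
      _ = (z * t) * t := by group
      _ = t := by rw [h, one_mul]
  obtain ⟨N, hN⟩ : ∃ N : Subgroup G, N = Subgroup.normalizer (V : Set G) := ⟨_, rfl⟩
  rw [← hN]
  let 𝒮 : Set G := {z, t, z * t}
  have mem𝒮 : ∀ x, x ∈ 𝒮 ↔ x = z ∨ x = t ∨ x = z * t := by
    intro x; simp [𝒮]
  have key : ∀ m ∈ N, ∀ s ∈ 𝒮, m * s * m⁻¹ ∈ 𝒮 := by
    intro m hm s hs
    have hsV : s ∈ V := by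
      rw [hV]; exact Or.inr ((mem𝒮 s).1 hs)
    have hs1 : s ≠ 1 := by
      rcases (mem𝒮 s).1 hs with rfl | rfl | rfl
      · exact hz1
      · exact ht1
      · exact hzt1
    have h1 := (Subgroup.mem_normalizer_iff.1 (hN ▸ hm) s).1 hsV
    rw [hV] at h1
    rcases h1 with h1 | h1
    · exact absurd h1 (Setup.conj_ne_one hs1)
    · exact (mem𝒮 _).2 h1
  let act : MulAction ↥N ↥𝒮 :=
    { smul := fun m s => ⟨m * s * (m : G)⁻¹, key m m.2 s s.2⟩
      one_smul := fun s => Subtype.ext (by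
        show ((1 : ↥N) : G) * s * ((1 : ↥N) : G)⁻¹ = s
        simp)
      mul_smul := fun m m' s => Subtype.ext (by
        show ((m * m' : ↥N) : G) * s * ((m * m' : ↥N) : G)⁻¹ = m * (m' * s * (m' : G)⁻¹) * (m : G)⁻¹
        rw [Subgroup.coe_mul]; group) }
  let φ : ↥N →* Equiv.Perm ↥𝒮 := MulAction.toPermHom ↥N ↥𝒮
  have hφ : ∀ (m : ↥N) (s : ↥𝒮), ((φ m s : ↥𝒮) : G) = m * s * (m : G)⁻¹ := fun _ _ => rfl
  have hz𝒮 : z ∈ 𝒮 := (mem𝒮 z).2 (Or.inl rfl)
  have ht𝒮 : t ∈ 𝒮 := (mem𝒮 t).2 (Or.inr (Or.inl rfl))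
  have memker : ∀ m : ↥N, φ m = 1 ↔ (m : G) * z * (m : G)⁻¹ = z ∧ (m : G) * t * (m : G)⁻¹ = t := by
    intro m
    constructor
    · intro h
      refine ⟨?_, ?_⟩
      · rw [← hφ m ⟨z, hz𝒮⟩, h]; rfl
      · rw [← hφ m ⟨t, ht𝒮⟩, h]; rfl
    · rintro ⟨h1, h2⟩
      ext s
      rw [hφ]
      show _ = (s : G)
      rcases (mem𝒮 _).1 s.2 with h | h | h
      · rw [h, h1]
      · rw [h, h2]
      · rw [h]
        calc (m : G) * (z * t) * (m : G)⁻¹ = ((m : G) * z * (m : G)⁻¹) * ((m : G) * t * (m : G)⁻¹) := by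
              group
          _ = z * t := by rw [h1, h2]
  have hcard𝒮 : Nat.card ↥𝒮 = 3 := by
    rw [Nat.card_coe_set_eq, Set.ncard_eq_three]
    refine ⟨z, t, z * t, hzt, ?_, ?_, rfl⟩
    · intro h
      exact ht1 (mul_eq_left.1 h.symm)
    · intro h
      exact hz1 (mul_eq_right.1 h.symm)
  have hperm : Nat.card (Equiv.Perm (Fin 3)) = 6 := by
    rw [Nat.card_perm, Nat.card_fin]; rfl
  let ε : Equiv.Perm ↥𝒮 ≃* Equiv.Perm (Fin 3) := (Finite.equivFinOfCardEq hcard𝒮).permCongrHom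
  let ψ : ↥N →* Equiv.Perm (Fin 3) := ε.toMonoidHom.comp φ
  have hψ1 : ∀ m, ψ m = 1 ↔ φ m = 1 := by
    intro m
    show ε (φ m) = 1 ↔ _
    exact ε.map_eq_one_iff
  have memker' : ∀ m : ↥N, ψ m = 1 ↔ (m : G) * z * (m : G)⁻¹ = z ∧ (m : G) * t * (m : G)⁻¹ = t :=
    fun m => (hψ1 m).trans (memker m)
  refine ⟨ψ, ?_, ?_⟩
  · intro m
    rw [memker']
    constructor
    · rintro ⟨h1, h2⟩
      refine ⟨?_, ?_⟩
      · calc (m : G) * z = ((m : G) * z * (m : G)⁻¹) * m := by group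
          _ = z * m := by rw [h1]
      · calc (m : G) * t = ((m : G) * t * (m : G)⁻¹) * m := by group
          _ = t * m := by rw [h2]
    · rintro ⟨h1, h2⟩
      refine ⟨?_, ?_⟩
      · rw [h1]; group
      · rw [h2]; group
  · rintro K ⟨haN, haK⟩ ⟨hnN, hnK⟩
    apply Subgroup.eq_top_of_card_eq
    rw [hperm]
    have hdvd : Nat.card ↥(K.map ψ) ∣ 6 := hperm ▸ Subgroup.card_subgroup_dvd_card _
    have h2 : 2 ∣ Nat.card ↥(K.map ψ) := by
      have ho : orderOf (ψ ⟨a, haN⟩) = 2 := by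
        apply orderOf_eq_prime
        · rw [← map_pow, memker']
          refine ⟨?_, ?_⟩
          · show (a ^ 2) * z * (a ^ 2)⁻¹ = z
            calc (a ^ 2) * z * (a ^ 2)⁻¹ = a * (a * z * a⁻¹) * a⁻¹ := by
                  simp only [pow_succ, pow_zero, one_mul, mul_inv_rev, mul_assoc]
              _ = z := by rw [ha1, ha1]
          · show (a ^ 2) * t * (a ^ 2)⁻¹ = t
            calc (a ^ 2) * t * (a ^ 2)⁻¹ = a * (a * t * a⁻¹) * a⁻¹ := by
                  simp only [pow_succ, pow_zero, one_mul, mul_inv_rev, mul_assoc]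
              _ = t := by rw [ha2, ha3]
        · rw [Ne, memker']
          rintro ⟨-, h⟩
          have h' : a * t * a⁻¹ = t := h
          rw [ha2] at h'
          exact hz1 (mul_eq_right.1 h')
      have hm : ψ ⟨a, haN⟩ ∈ K.map ψ := ⟨_, haK, rfl⟩
      have := orderOf_dvd_natCard (⟨ψ ⟨a, haN⟩, hm⟩ : ↥(K.map ψ))
      rw [Subgroup.orderOf_mk, ho] at this
      exact this
    have h3 : 3 ∣ Nat.card ↥(K.map ψ) := by
      have ho : orderOf (ψ ⟨n, hnN⟩) = 3 := by
        have : Fact (Nat.Prime 3) := ⟨Nat.prime_three⟩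
        apply orderOf_eq_prime
        · rw [← map_pow, memker']
          refine ⟨?_, ?_⟩
          · show (n ^ 3) * z * (n ^ 3)⁻¹ = z
            calc (n ^ 3) * z * (n ^ 3)⁻¹ = n * (n * (n * z * n⁻¹) * n⁻¹) * n⁻¹ := by
                  simp only [pow_succ, pow_zero, one_mul, mul_inv_rev, mul_assoc]
              _ = z := by rw [hn1, hn2, hn3]
          · show (n ^ 3) * t * (n ^ 3)⁻¹ = t
            calc (n ^ 3) * t * (n ^ 3)⁻¹ = n * (n * (n * t * n⁻¹) * n⁻¹) * n⁻¹ := by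
                  simp only [pow_succ, pow_zero, one_mul, mul_inv_rev, mul_assoc]
              _ = t := by rw [hn2, hn3, hn1]
        · rw [Ne, memker']
          rintro ⟨h, -⟩
          have h' : n * z * n⁻¹ = z := h
          rw [hn1] at h'
          exact hzt h'.symm
      have hm : ψ ⟨n, hnN⟩ ∈ K.map ψ := ⟨_, hnK, rfl⟩
      have := orderOf_dvd_natCard (⟨ψ ⟨n, hnN⟩, hm⟩ : ↥(K.map ψ))
      rw [Subgroup.orderOf_mk, ho] at this
      exact this
    have h6 : 6 ∣ Nat.card ↥(K.map ψ) :=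
      Nat.Coprime.mul_dvd_of_dvd_of_dvd (by decide : Nat.Coprime 2 3) h2 h3
    exact Nat.dvd_antisymm hdvd h6

/-- elements of `Q` either centralize `t` or lie in the coset of `q₀`. -/
theorem Setup.dichotomy {Q : Subgroup G} {z : G} (S : Setup Q z) {t q₀ : G} (ht : t ∈ Q)
    (hq₀t : q₀ * t * q₀⁻¹ = z * t) {q : G} (hq : q ∈ Q) :
    q * t = t * q ∨ (q₀⁻¹ * q) * t = t * (q₀⁻¹ * q) := by
  have r2 : q₀⁻¹ * (z * t) = t * q₀⁻¹ := by rw [← hq₀t]; group
  rcases S.comm hq ht with h | h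
  · exact Or.inl h
  · right
    calc q₀⁻¹ * q * t = q₀⁻¹ * (q * t) := by group
      _ = q₀⁻¹ * (z * (t * q)) := by rw [h]
      _ = (q₀⁻¹ * (z * t)) * q := by group
      _ = t * q₀⁻¹ * q := by rw [r2]
      _ = t * (q₀⁻¹ * q) := by group

end Cfsg.Agent.Lib.Helper27.XS
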