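import Cfsg.Agent.Lib.Helper27.XS6
import Cfsg.Agent.Lib.Helper27.Basic
import Cfsg.Agent.S5421

/-!
An elementwise criterion for extraspecial `2`-subgroups, and largeness from a conjugate of the centre.
-/

set_option autoImplicit false

open Cfsg Subgroup
open scoped commutatorElement

namespace Cfsg.Agent.Lib.Helper27.XS

variable {G : Type*} [Group G]

theorem mem_zpowers_invol {z : G} (zz : z * z = 1) {x : G} :
    x ∈ Subgroup.zpowers z ↔ x = 1 ∨ x = z := by
  constructor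
  · intro hx
    obtain ⟨k, rfl⟩ := Subgroup.mem_zpowers_iff.1 hx
    rcases Int.even_or_odd' k with ⟨m, rfl | rfl⟩
    · left; rw [zpow_mul, zpow_two, zz, one_zpow]
    · right; rw [zpow_add, zpow_mul, zpow_two, zz, one_zpow, one_mul, zpow_one]
  · rintro (rfl | rfl)
    · exact Subgroup.one_mem _
    · exact Subgroup.mem_zpowers _

theorem extraspecial_of_elementwise [Finite G] {P : Subgroup G} {z : G} (hp : IsPGroup 2 ↥P)
    (hzP : z ∈ P) (hz1 : z ≠ 1) (hzc : ∀ y ∈ P, y * z = z * y)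
    (hcomm : ∀ a ∈ P, ∀ b ∈ P, a * b = b * a ∨ a * b = z * (b * a))
    (hsq : ∀ a ∈ P, a * a = 1 ∨ a * a = z)
    (hcent : ∀ x ∈ P, (∀ y ∈ P, y * x = x * y) → x = 1 ∨ x = z)
    (hna : ∃ a ∈ P, ∃ b ∈ P, a * b ≠ b * a) : Cfsg.IsExtraspecial 2 ↥P := by
  have : Fact (Nat.Prime 2) := ⟨Nat.prime_two⟩
  have zz : z * z = 1 := by
    rcases hsq z hzP with h | h
    · exact h
    · exact absurd (mul_eq_left.1 h) hz1
  have memZ : ∀ x, x ∈ Subgroup.zpowers z ↔ x = 1 ∨ x = z := fun x => mem_zpowers_invol zz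
  have hcen : (Subgroup.center ↥P).map P.subtype = Subgroup.zpowers z := by
    ext x
    rw [mem_Z_iff, memZ]
    constructor
    · rintro ⟨h1, h2⟩; exact hcent x h1 h2
    · rintro (rfl | rfl)
      · exact ⟨P.one_mem, fun y _ => by simp⟩
      · exact ⟨hzP, hzc⟩
  have hRR : ⁅P, P⁆ = Subgroup.zpowers z := by
    apply le_antisymm
    · rw [Subgroup.commutator_le]
      intro a ha b hb
      rw [memZ, commutatorElement_def]
      rcases hcomm a ha b hb with h | h
      · left; rw [h]; group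
      · right; rw [h]; group
    · rw [Subgroup.zpowers_le]
      obtain ⟨a, ha, b, hb, hab⟩ := hna
      have h1 : ⁅a, b⁆ ∈ ⁅P, P⁆ := Subgroup.commutator_mem_commutator ha hb
      rcases hcomm a ha b hb with h | h
      · exact absurd h hab
      · have : ⁅a, b⁆ = z := by rw [commutatorElement_def, h]; group
        rwa [this] at h1
  have hcommEq : commutator ↥P = Subgroup.center ↥P := by
    apply Subgroup.map_injective P.subtype_injective
    rw [hcen, ← hRR, _root_.commutator_def, Subgroup.map_commutator, ← MonoidHom.range_eq_map,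
      Subgroup.range_subtype]
  refine ⟨⟨hp, ?_, hcommEq⟩, ?_⟩
  · apply le_antisymm
    · refine Cfsg.H1.frattini_pgroup_le 2 (Subgroup.center ↥P) hcommEq.le ?_
      rintro ⟨x, hx⟩
      have h1 : x ^ 2 ∈ Subgroup.zpowers z := by
        rw [pow_two, memZ]; exact hsq x hx
      rw [← hcen] at h1
      obtain ⟨y, hy, hyx⟩ := h1
      have : y = (⟨x, hx⟩ : ↥P) ^ 2 := Subtype.ext hyx
      rw [← this]; exact hy
    · rw [← hcommEq]
      exact (Cfsg.H1.frattini_pgroup_ge 2 hp).1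
  · rw [← Subgroup.card_map_of_injective P.subtype_injective, hcen, Nat.card_zpowers]
    exact orderOf_eq_prime (by rw [pow_two]; exact zz) hz1

/-- `Q` is large as soon as a conjugate of `z` lies in `Q - ⟨z⟩`. -/
theorem Setup.large_of_conj [Finite G] {Q : Subgroup G} {z : G} (S : Setup Q z) {g : G}
    (ht0 : g * z * g⁻¹ ∈ Q) (htz0 : g * z * g⁻¹ ≠ z) : Cfsg.IsLargeExtraspecial Q := by
  have hp2 : Fact (Nat.Prime 2) := ⟨Nat.prime_two⟩
  obtain ⟨t, htg⟩ : ∃ t, t = g * z * g⁻¹ := ⟨_, rfl⟩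
  have ht : t ∈ Q := htg ▸ ht0
  have htz : t ≠ z := htg ▸ htz0
  have S' : Setup (Q.map (MulAut.conj g).toMonoidHom) t := by rw [htg]; exact S.conj g
  have ht1 : t ≠ 1 := S'.z1
  have htt : t * t = 1 := S'.zz
  have htZ : t ∉ (Subgroup.center ↥Q).map Q.subtype := fun h => (S.mem_Z.1 h).elim ht1 htz
  have hzQt : z ∈ Q.map (MulAut.conj g).toMonoidHom := mem_conj_iff.2 (S.z_mem_conj ht0 htz0)
  refine Cfsg.Agent.S5421.result Q S.ex S.hL2 S.hL3 t ht htZ
    (orderOf_eq_prime (by rw [pow_two]; exact htt) ht1) ?_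
  obtain ⟨C, hC⟩ : ∃ C : Subgroup G, C = Subgroup.centralizer ({t} : Set G) := ⟨_, rfl⟩
  rw [← hC]
  have memC : ∀ x, x ∈ C ↔ x * t = t * x := by
    intro x; rw [hC]; exact Subgroup.mem_centralizer_singleton_iff
  obtain ⟨Qt, hQt⟩ : ∃ Qt : Subgroup G, Qt = Q.map (MulAut.conj g).toMonoidHom := ⟨_, rfl⟩
  rw [← hQt] at S' hzQt
  have hQtC : Qt ≤ C := fun x hx => (memC x).2 (S'.zc hx)
  have hn : (Qt.subgroupOf C).Normal :=
    (Subgroup.normal_subgroupOf_iff_le_normalizer hQtC).2 (fun c hc => S'.norm c ((memC c).1 hc))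
  have hle := le_pCore hn (S'.ex.1.1.comap_subtype (K := C))
  intro x hx
  have hxQt : x ∈ Qt := by
    rcases S.mem_Z.1 hx with rfl | rfl
    · exact Qt.one_mem
    · exact hzQt
  exact ⟨⟨x, hQtC hxQt⟩, hle (Subgroup.mem_subgroupOf.2 hxQt), rfl⟩

end Cfsg.Agent.Lib.Helper27.XS
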