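import Cfsg.Agent.Lib.Helper27.XS7

/-!
Coprime action on an extraspecial `2`-subgroup: the centre of the fixed points.
-/

set_option autoImplicit false

open Cfsg Subgroup
open scoped commutatorElement

namespace Cfsg.Agent.Lib.Helper27.XS

variable {G : Type*} [Group G]

theorem Setup.center_fixed [Finite G] {Q : Subgroup G} {z : G} (S : Setup Q z) {A : Subgroup G}
    (hA : ∀ a ∈ A, a * z = z * a) (hAodd : Odd (Nat.card ↥A)) {x : G} (hx : x ∈ Q)
    (hxA : ∀ a ∈ A, a * x = x * a) (hc : ∀ y ∈ Q, (∀ a ∈ A, a * y = y * a) → y * x = x * y) :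
    x = 1 ∨ x = z := by
  have : Fact (Nat.Prime 2) := ⟨Nat.prime_two⟩
  have hAN : A ≤ Subgroup.normalizer (Q : Set G) := fun a ha => S.norm a (hA a ha)
  obtain ⟨Z, hZ⟩ : ∃ Z : Subgroup G, Z = (Subgroup.center ↥Q).map Q.subtype := ⟨_, rfl⟩
  obtain ⟨C, hC⟩ : ∃ C : Subgroup G, C = Q ⊓ Subgroup.centralizer (A : Set G) := ⟨_, rfl⟩
  obtain ⟨R, hR⟩ : ∃ R : Subgroup G, R = ⁅Q, A⁆ := ⟨_, rfl⟩
  have hQp : IsPGroup 2 ↥Q := S.ex.1.1
  have hcop : (Nat.card A).Coprime (Nat.card Q) := by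
    obtain ⟨t, ht⟩ := IsPGroup.iff_card.1 hQp
    rw [ht]
    exact Nat.Coprime.pow_right _ (Nat.coprime_two_right.2 hAodd)
  have hsolv : Group.IsSolvable A ∨ Group.IsSolvable Q := by
    right
    have := hQp.isNilpotent
    infer_instance
  have hdec : R ⊔ C = Q := by
    rw [hR, hC]; exact Cfsg.H1.coprime_commutator_sup_centralizer A Q hAN hcop hsolv
  have hCle : C ≤ Q := hC ▸ inf_le_left
  have hZA : ⁅Z, A⁆ = ⊥ := by
    rw [Subgroup.commutator_eq_bot_iff_le_centralizer]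
    intro y hy
    rw [Subgroup.mem_centralizer_iff]
    intro a ha
    rw [hZ] at hy
    rcases S.mem_Z.1 hy with rfl | rfl
    · simp
    · exact hA a ha
  have hRC : ⁅R, C⁆ = ⊥ := by
    rw [hR]
    apply Subgroup.commutator_commutator_eq_bot_of_rotate
    · have : ⁅A, C⁆ = ⊥ := by
        rw [Subgroup.commutator_eq_bot_iff_le_centralizer, Subgroup.le_centralizer_iff, hC]
        exact inf_le_right
      rw [this]
      exact Subgroup.commutator_bot_left _
    · have h1 : ⁅C, Q⁆ ≤ Z := by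
        rw [hZ, ← comm_eq S.ex]
        exact Subgroup.commutator_mono hCle le_rfl
      rw [eq_bot_iff, ← hZA]
      exact Subgroup.commutator_mono h1 le_rfl
  have hxC : x ∈ C := by
    rw [hC]
    exact ⟨hx, Subgroup.mem_centralizer_iff.2 hxA⟩
  apply S.cent
  have h3 : R ⊔ C ≤ Subgroup.centralizer {x} := by
    refine sup_le ?_ ?_
    · intro y hy
      rw [Subgroup.mem_centralizer_singleton_iff]
      have h3 : ⁅y, x⁆ ∈ ⁅R, C⁆ := Subgroup.commutator_mem_commutator hy hxC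
      rw [hRC, Subgroup.mem_bot, commutatorElement_eq_one_iff_mul_comm] at h3
      exact h3
    · intro y hy
      rw [Subgroup.mem_centralizer_singleton_iff]
      rw [hC] at hy
      exact hc y hy.1 (Subgroup.mem_centralizer_iff.1 hy.2)
  intro y hy
  rw [← hdec] at hy
  exact Subgroup.mem_centralizer_singleton_iff.1 (h3 hy)

theorem Setup.pow_four [Finite G] {Q : Subgroup G} {z : G} (S : Setup Q z) {y : G} (hy : y ∈ Q) :
    y ^ 4 = 1 := by
  have : y ^ 4 = (y * y) * (y * y) := by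
    simp only [pow_succ, pow_zero, one_mul, mul_assoc]
  rw [this]
  rcases S.sq hy with h | h
  · rw [h, one_mul]
  · rw [h, S.zz]

theorem eq_one_of_pow_four {A : Subgroup G} [Finite A] (hAodd : Odd (Nat.card ↥A)) {a : G} (ha : a ∈ A)
    (h4 : a ^ 4 = 1) : a = 1 := by
  have h1 : orderOf a ∣ 4 := orderOf_dvd_of_pow_eq_one h4
  have h2 : orderOf a ∣ Nat.card ↥A := by
    have := orderOf_dvd_natCard (⟨a, ha⟩ : ↥A)
    rwa [Subgroup.orderOf_mk] at this
  have h3 : Nat.Coprime 4 (Nat.card ↥A) := by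
    have : Nat.Coprime 2 (Nat.card ↥A) := Nat.coprime_two_left.2 hAodd
    exact Nat.Coprime.pow_left 2 this
  have h4 : orderOf a = 1 := Nat.eq_one_of_dvd_coprimes h3 h1 h2
  exact orderOf_eq_one_iff.1 h4

end Cfsg.Agent.Lib.Helper27.XS
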