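import Cfsg.Agent.Lib.Helper27.XS7

/-!
Centralizers inside an extraspecial `2`-subgroup: `|U| |C_Q(U)| = 2 |Q|` and the double centralizer
property.
-/

set_option autoImplicit false

open Cfsg Subgroup
open scoped commutatorElement

namespace Cfsg.Agent.Lib.Helper27.XS

variable {G : Type*} [Group G]

namespace Setup

variable {Q : Subgroup G} {z : G}

theorem not_comm_of_anti (S : Setup Q z) {a b : G} (h : a * b = z * (b * a)) : a * b ≠ b * a := by
  intro h1
  rw [h1] at h
  exact S.z1 (mul_eq_right.1 h.symm)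

/-- parity of commutation. -/
theorem commute_mul_iff (S : Setup Q z) {x a b : G} (hx : x ∈ Q) (ha : a ∈ Q) (hb : b ∈ Q) :
    x * (a * b) = (a * b) * x ↔ (x * a = a * x ↔ x * b = b * x) := by
  have hza := S.zc ha
  rcases S.comm hx ha with h1 | h1 <;> rcases S.comm hx hb with h2 | h2
  · refine ⟨fun _ => ⟨fun _ => h2, fun _ => h1⟩, fun _ => ?_⟩
    calc x * (a * b) = (x * a) * b := by group
      _ = a * (x * b) := by rw [h1]; group
      _ = _ := by rw [h2]; group
  · have e : x * (a * b) = z * ((a * b) * x) := by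
      calc x * (a * b) = (x * a) * b := by group
        _ = a * (x * b) := by rw [h1]; group
        _ = (a * z) * (b * x) := by rw [h2]; group
        _ = _ := by rw [hza]; group
    refine ⟨fun h => absurd h (S.not_comm_of_anti e), fun h => ?_⟩
    exact absurd (h.1 h1) (S.not_comm_of_anti h2)
  · have e : x * (a * b) = z * ((a * b) * x) := by
      calc x * (a * b) = (x * a) * b := by group
        _ = z * a * (x * b) := by rw [h1]; group
        _ = _ := by rw [h2]; group
    refine ⟨fun h => absurd h (S.not_comm_of_anti e), fun h => ?_⟩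
    exact absurd (h.2 h2) (S.not_comm_of_anti h1)
  · refine ⟨fun _ => ⟨fun h => absurd h (S.not_comm_of_anti h1),
      fun h => absurd h (S.not_comm_of_anti h2)⟩, fun _ => ?_⟩
    calc x * (a * b) = (x * a) * b := by group
      _ = z * a * (x * b) := by rw [h1]; group
      _ = z * (a * z) * (b * x) := by rw [h2]; group
      _ = (z * z) * (a * b * x) := by rw [hza]; group
      _ = _ := by rw [S.zz, one_mul]

theorem commute_inv_iff {x a : G} : x * a⁻¹ = a⁻¹ * x ↔ x * a = a * x := by
  constructor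
  · intro h
    calc x * a = a * (a⁻¹ * x) * a := by group
      _ = a * (x * a⁻¹) * a := by rw [h]
      _ = _ := by group
  · intro h
    calc x * a⁻¹ = a⁻¹ * (a * x) * a⁻¹ := by group
      _ = a⁻¹ * (x * a) * a⁻¹ := by rw [h]
      _ = _ := by group

theorem relIndex_mul_card' {H K : Subgroup G} (h : H ≤ K) :
    H.relIndex K * Nat.card ↥H = Nat.card ↥K := by
  have h1 := (H.subgroupOf K).card_mul_index
  rw [Nat.card_congr (Subgroup.subgroupOfEquivOfLe h).toEquiv] at h1
  rw [Subgroup.relIndex, mul_comm]; exact h1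

/-- the centralizer of an element of `Q` has index at most two in every subgroup of `Q`. -/
theorem card_le_two_mul [Finite G] (S : Setup Q z) {D : Subgroup G} (hD : D ≤ Q) {x : G}
    (hx : x ∈ Q) : Nat.card ↥D ≤ 2 * Nat.card ↥(D ⊓ Subgroup.centralizer ({x} : Set G)) := by
  by_cases h : D ≤ Subgroup.centralizer ({x} : Set G)
  · rw [inf_eq_left.2 h]; omega
  · obtain ⟨d₀, hd₀, hd₀x⟩ := SetLike.not_le_iff_exists.1 h
    rw [Subgroup.mem_centralizer_singleton_iff] at hd₀x
    have h2 : (D ⊓ Subgroup.centralizer ({x} : Set G)).relIndex D = 2 := by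
      rw [Subgroup.relIndex, Subgroup.index_eq_two_iff]
      refine ⟨⟨d₀, hd₀⟩, ?_⟩
      rintro ⟨b, hb⟩
      rw [Subgroup.mem_subgroupOf, Subgroup.mem_subgroupOf]
      simp only [Subgroup.coe_mul, Subgroup.mem_inf, Subgroup.mem_centralizer_singleton_iff]
      have key := S.commute_mul_iff hx (hD hb) (hD hd₀)
      by_cases hbx : b * x = x * b
      · right
        refine ⟨⟨hb, hbx⟩, ?_⟩
        rintro ⟨-, h3⟩
        exact hd₀x ((key.1 h3.symm).1 hbx.symm).symm
      · left
        refine ⟨⟨D.mul_mem hb hd₀, ?_⟩, fun h3 => hbx h3.2⟩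
        refine (key.2 ⟨fun h3 => absurd h3.symm hbx, fun h3 => absurd h3.symm hd₀x⟩).symm
    have h3 := relIndex_mul_card' (inf_le_left : D ⊓ Subgroup.centralizer ({x} : Set G) ≤ D)
    rw [h2] at h3
    omega

theorem two_mul_card_le_of_lt [Finite G] {U U₁ : Subgroup G} (h : U < U₁) :
    2 * Nat.card ↥U ≤ Nat.card ↥U₁ := by
  have h3 := relIndex_mul_card' h.le
  have h1 : U.relIndex U₁ ≠ 1 := fun h1 => absurd (Subgroup.relIndex_eq_one.1 h1) h.not_ge
  have h0 : U.relIndex U₁ ≠ 0 := by
    intro h0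
    rw [h0, zero_mul] at h3
    exact absurd h3.symm Nat.card_pos.ne'
  have h2 : 2 ≤ U.relIndex U₁ := by omega
  calc 2 * Nat.card ↥U ≤ U.relIndex U₁ * Nat.card ↥U := Nat.mul_le_mul_right _ h2
    _ = _ := h3

/-- monotonicity of `|U| |C_Q(U)|`. -/
theorem card_mul_mono [Finite G] (S : Setup Q z) {U' : Subgroup G} (hU' : U' ≤ Q) :
    ∀ U : Subgroup G, U ≤ U' →
      Nat.card ↥U * Nat.card ↥(Q ⊓ Subgroup.centralizer (U : Set G)) ≤
        Nat.card ↥U' * Nat.card ↥(Q ⊓ Subgroup.centralizer (U' : Set G)) := by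
  intro U
  induction U using WellFoundedGT.induction with
  | ind U ih =>
    intro hU
    by_cases hEq : U = U'
    · rw [hEq]
    · have hlt : U < U' := lt_of_le_of_ne hU hEq
      obtain ⟨x, hxU', hxU⟩ := SetLike.exists_of_lt hlt
      have hlt1 : U < U ⊔ Subgroup.zpowers x := by
        refine lt_of_le_of_ne le_sup_left fun h => hxU ?_
        rw [h]; exact Subgroup.mem_sup_right (Subgroup.mem_zpowers x)
      have hle1 : U ⊔ Subgroup.zpowers x ≤ U' := sup_le hU (Subgroup.zpowers_le.2 hxU')
      refine le_trans ?_ (ih _ hlt1 hle1)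
      have h1 := two_mul_card_le_of_lt hlt1
      have h2 := S.card_le_two_mul (D := Q ⊓ Subgroup.centralizer (U : Set G)) inf_le_left
        (hU' hxU')
      have h3 : Q ⊓ Subgroup.centralizer (U : Set G) ⊓ Subgroup.centralizer ({x} : Set G) ≤
          Q ⊓ Subgroup.centralizer ((U ⊔ Subgroup.zpowers x : Subgroup G) : Set G) := by
        intro c hc
        refine Subgroup.mem_inf.2 ⟨hc.1.1, ?_⟩
        have hc1 : U ≤ Subgroup.centralizer ({c} : Set G) := by
          intro u hu
          rw [Subgroup.mem_centralizer_singleton_iff]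
          exact Subgroup.mem_centralizer_iff.1 hc.1.2 u hu
        have hc2 : Subgroup.zpowers x ≤ Subgroup.centralizer ({c} : Set G) := by
          rw [Subgroup.zpowers_le, Subgroup.mem_centralizer_singleton_iff]
          exact (Subgroup.mem_centralizer_singleton_iff.1 hc.2).symm
        rw [Subgroup.mem_centralizer_iff]
        intro u hu
        exact Subgroup.mem_centralizer_singleton_iff.1 (sup_le hc1 hc2 hu)
      have h4 := Subgroup.card_le_of_le h3
      calc Nat.card ↥U * Nat.card ↥(Q ⊓ Subgroup.centralizer (U : Set G))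
          ≤ Nat.card ↥U * (2 * Nat.card ↥(Q ⊓ Subgroup.centralizer (U : Set G) ⊓
              Subgroup.centralizer ({x} : Set G))) := Nat.mul_le_mul_left _ h2
        _ = (2 * Nat.card ↥U) * Nat.card ↥(Q ⊓ Subgroup.centralizer (U : Set G) ⊓
              Subgroup.centralizer ({x} : Set G)) := by ring
        _ ≤ _ := Nat.mul_le_mul h1 h4

theorem card_mul_card_cent [Finite G] (S : Setup Q z) {U : Subgroup G} (hU : U ≤ Q) (hz : z ∈ U) :
    Nat.card ↥U * Nat.card ↥(Q ⊓ Subgroup.centralizer (U : Set G)) = 2 * Nat.card ↥Q := by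
  apply le_antisymm
  · have h := S.card_mul_mono le_rfl U hU
    have h1 : Q ⊓ Subgroup.centralizer (Q : Set G) = (Subgroup.center ↥Q).map Q.subtype := by
      rw [S.hL2]; exact inf_eq_right.2 (Subgroup.map_subtype_le _)
    rw [h1, card_Z S.ex] at h
    omega
  · have h := S.card_mul_mono hU (Subgroup.zpowers z) (Subgroup.zpowers_le.2 hz)
    have h1 : Q ⊓ Subgroup.centralizer ((Subgroup.zpowers z : Subgroup G) : Set G) = Q := by
      rw [inf_eq_left]
      intro q hq
      rw [Subgroup.mem_centralizer_iff]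
      intro y hy
      rcases (mem_zpowers_invol S.zz).1 hy with rfl | rfl
      · simp
      · exact (S.zc hq).symm
    have h2 : Nat.card ↥(Subgroup.zpowers z) = 2 := by
      rw [Nat.card_zpowers]
      exact orderOf_eq_prime (by rw [pow_two]; exact S.zz) S.z1
    rw [h1, h2] at h
    exact h

/-- the double centralizer property. -/
theorem double_cent [Finite G] (S : Setup Q z) {U : Subgroup G} (hU : U ≤ Q) (hz : z ∈ U) :
    Q ⊓ Subgroup.centralizer ((Q ⊓ Subgroup.centralizer (U : Set G) : Subgroup G) : Set G) = U := by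
  have h1 := S.card_mul_card_cent hU hz
  have hzC : z ∈ Q ⊓ Subgroup.centralizer (U : Set G) := by
    refine Subgroup.mem_inf.2 ⟨S.zQ, ?_⟩
    rw [Subgroup.mem_centralizer_iff]
    intro u hu
    exact S.zc (hU hu)
  have h2 := S.card_mul_card_cent (U := Q ⊓ Subgroup.centralizer (U : Set G)) inf_le_left hzC
  have hle : U ≤ Q ⊓ Subgroup.centralizer
      ((Q ⊓ Subgroup.centralizer (U : Set G) : Subgroup G) : Set G) := by
    intro u hu
    refine Subgroup.mem_inf.2 ⟨hU hu, ?_⟩
    rw [Subgroup.mem_centralizer_iff]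
    intro c hc
    exact (Subgroup.mem_centralizer_iff.1 hc.2 u hu).symm
  have hpos : 0 < Nat.card ↥(Q ⊓ Subgroup.centralizer (U : Set G)) := Nat.card_pos
  have h3 : Nat.card ↥(Q ⊓ Subgroup.centralizer
      ((Q ⊓ Subgroup.centralizer (U : Set G) : Subgroup G) : Set G)) = Nat.card ↥U := by
    have : Nat.card ↥(Q ⊓ Subgroup.centralizer (U : Set G)) * Nat.card ↥(Q ⊓ Subgroup.centralizer
      ((Q ⊓ Subgroup.centralizer (U : Set G) : Subgroup G) : Set G)) =
        Nat.card ↥(Q ⊓ Subgroup.centralizer (U : Set G)) * Nat.card ↥U := by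
      rw [h2, ← h1]; ring
    exact Nat.eq_of_mul_eq_mul_left hpos this
  exact (Subgroup.eq_of_le_of_card_ge hle h3.le).symm

end Setup

end Cfsg.Agent.Lib.Helper27.XS
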